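/-
S5586: the pieces CL, CP, N0, L0.
-/
import Cfsg.Agent.H7.AM0

set_option autoImplicit false
set_option linter.unusedVariables false
set_option linter.unusedSectionVars false
set_option linter.unusedSimpArgs false

namespace H19.AM
open Cfsg H15 H19 H0 H0.Mo H0.Y H7.AM Subgroup Function
open scoped commutatorElement

universe u v

theorem cl : H7.AM.CL.{u} := fun X V a pr b as ai bs ba ex un tri d2 h8 h9 p₀ => by
  let S : V → Prop := fun q => q = p₀ ∨ b p₀ q ∨ pr p₀ ≠ pr q ∧ ¬ a (pr p₀) (pr q) ∧ ∃ r, b p₀ r ∧ b r q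
  have u1 : ∀ {r r' q q'}, b p₀ r → b r q → b p₀ r' → b r' q' → pr q = pr q' → pr r = pr r' ∨ a (pr r) (pr r') → q = q' := by
    rintro r r' q q' h1 h2 h3 h4 e (k | k)
    · obtain rfl := un _ _ _ h1 h3 k; exact un _ _ _ h2 h4 e
    · exact un _ _ _ (tri _ _ _ (tri _ _ _ h1 h3 k) h2 (e ▸ ba _ _ h4)) h4 e
  have u : ∀ {q q'}, S q → S q' → pr q = pr q' → q = q' := by
    rintro q q' (h | h | ⟨h1, h2, r, h3, h4⟩) (h' | h' | ⟨h5, h6, r', h7, h8'⟩) e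
    · rw [h, h']
    · exact (ai _ (h ▸ e ▸ ba _ _ h')).elim
    · exact (h5 (h ▸ e)).elim
    · exact (ai _ (h' ▸ e ▸ ba _ _ h)).elim
    · exact un _ _ _ h h' e
    · exact (h6 (e ▸ ba _ _ h)).elim
    · exact (h1 (h' ▸ e.symm)).elim
    · exact (h2 (e ▸ ba _ _ h')).elim
    by_cases k : pr r = pr r' ∨ a (pr r) (pr r')
    · exact u1 h3 h4 h7 h8' e k
    obtain ⟨v, v1, v2, v3, v4⟩ := h8 _ _ _ _ h1 h2 (ba _ _ h3) (as _ _ (ba _ _ h4)) (ba _ _ h7) (e ▸ as _ _ (ba _ _ h8'))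
      (not_or.1 k).1 (not_or.1 k).2
    obtain ⟨s, s1, rfl⟩ := ex _ _ v1
    obtain ⟨t, t1, t2⟩ := ex _ _ (as _ _ v2)
    exact (u1 h3 h4 s1 t1 t2.symm (.inr v3)).trans (u1 s1 t1 h7 h8' (t2.trans e) (.inr (as _ _ v4)))
  have l : ∀ {r q}, b p₀ r → S q → a (pr r) (pr q) → b r q := by
    rintro r q h (rfl | h' | h') k
    exacts [bs _ _ h, tri _ _ _ h h' k, let ⟨t, t1, t2⟩ := ex _ _ k
      u (.inr (.inr ⟨t2 ▸ h'.1, t2 ▸ h'.2.1, r, h, t1⟩)) (.inr (.inr h')) t2 ▸ t1]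
  have e : ∀ x, ∃ q, S q ∧ pr q = x := fun x => by
    by_cases h : pr p₀ = x
    · exact ⟨_, .inl rfl, h⟩
    by_cases h' : a (pr p₀) x
    · exact (ex _ _ h').imp fun q k => ⟨.inr (.inl k.1), k.2⟩
    obtain ⟨w, w1, w2⟩ := d2 _ _ h'
    obtain ⟨r, r1, rfl⟩ := ex _ _ w1
    obtain ⟨q, q1, rfl⟩ := ex _ _ (as _ _ w2)
    exact ⟨q, .inr (.inr ⟨h, h', r, r1, q1⟩), rfl⟩
  have c : ∀ {q q'}, S q → S q' → a (pr q) (pr q') → b q q' := by
    have : ∀ {q}, S q → a (pr p₀) (pr q) → b p₀ q := by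
      rintro q (rfl | h | h) k
      exacts [(ai _ k).elim, h, (h.2.1 k).elim]
    rintro q q' (rfl | h | h) h' k
    · exact this h' k
    · exact l h h' k
    rcases h' with rfl | h' | h'
    · exact (h.2.1 (as _ _ k)).elim
    · exact bs _ _ (l h' (.inr (.inr h)) (as _ _ k))
    obtain ⟨v, v1, v2, v3⟩ := h9 _ _ _ k h.1 h'.1 h.2.1 h'.2.1
    obtain ⟨s, s1, rfl⟩ := ex _ _ v1
    exact tri _ _ _ (l s1 (.inr (.inr h)) (as _ _ v2)) (l s1 (.inr (.inr h')) (as _ _ v3)) k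
  choose σ h1 h2 using e
  exact ⟨σ, h2, u (h1 _) (.inl rfl) (h2 _), fun x y k => c (h1 x) (h1 y) (by rwa [h2, h2])⟩

section
variable {G : Type u} [Group G] {K Y R X : Subgroup G} {δ : G → G} {k d : G}

theorem mem_XX {r : G} (h : r ∈ R) : r⁻¹ * δ r ∈ XX R δ := subset_closure ⟨r, h, rfl⟩
theorem XX_le (h : ∀ r ∈ R, r⁻¹ * δ r ∈ X) : XX R δ ≤ X := (closure_le _).2 (by rintro _ ⟨r, hr, rfl⟩; exact h r hr)

/-- an automorphism of order three fixes a point of a stable coset of a `2`-group -/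
theorem fixc [Finite G] (au : Au K δ) (d3 : ∀ k ∈ K, δ (δ (δ k)) = k) (l : Y ≤ K) (hY : IsPGroup 2 Y) (m : ∀ y ∈ Y, δ y ∈ Y)
    (hk : k ∈ K) (h : k⁻¹ * δ k ∈ Y) : ∃ y ∈ Y, δ (k * y) = k * y := by
  classical
  have := Fintype.ofFinite Y
  let φ : Y → Y := fun y => ⟨k⁻¹ * δ (k * y), by rw [au.mul _ hk _ (l y.2), ← mul_assoc]; exact mul_mem h (m _ y.2)⟩
  have e : ∀ y, φ (φ (φ y)) = y := fun y => Subtype.ext (by simp [φ, d3 _ (mul_mem hk (l y.2))])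
  obtain ⟨n, hn⟩ := IsPGroup.iff_card.1 hY
  obtain ⟨y, hy⟩ := Equiv.Perm.exists_fixed_point_of_prime (p := 3) (n := 1) (σ := ⟨φ, φ ∘ φ, e, e⟩) (by
    rw [← Nat.card_eq_fintype_card, hn]; exact fun h => absurd (Nat.prime_three.dvd_of_dvd_pow h) (by decide)) (Equiv.ext e)
  exact ⟨y, y.2, inv_mul_eq_iff_eq_mul.1 (congrArg Subtype.val hy)⟩

theorem mem_of_cube {s : G} (j : ℕ) (h : s ^ 2 ^ j = 1) (h3 : s ^ 3 ∈ X) : s ∈ X := by
  obtain ⟨m, e⟩ := exists_pow_eq_self_of_coprime (x := s) (n := 3)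
    (((by decide : Nat.Coprime 3 2).pow_right j).coprime_dvd_right (orderOf_dvd_of_pow_eq_one h))
  exact e ▸ pow_mem h3 m

/-- `N`'s commutator group is normal -/
theorem norm_XX {H : Subgroup G} (nR : H ≤ N(R)) (RH : R ≤ H) (pR : IsPGroup 2 R) (dH : d ∈ H) (d3 : d ^ 3 = 1)
    (h : ∀ n ∈ H, n * d * n⁻¹ * d⁻¹ ∈ R ∨ n * d * n⁻¹ * (d * d)⁻¹ ∈ R) : H ≤ N(XX R (cn d)) := by
  have cj : ∀ a ∈ H, (∀ r ∈ R, a * (r⁻¹ * cn d r) * a⁻¹ ∈ XX R (cn d)) → ∀ x ∈ XX R (cn d), a * x * a⁻¹ ∈ XX R (cn d) :=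
    fun a _ k x hx => XX_le (X := (XX R (cn d)).comap (MulAut.conj a).toMonoidHom) k hx
  have c1 := fun s (hs : s ∈ R) => cj s (RH hs) fun r hr => by
    convert mul_mem (mem_XX (δ := cn d) (mul_mem hr (inv_mem hs))) (inv_mem (mem_XX (δ := cn d) (inv_mem hs))) using 1; simp [mul_assoc]
  have c2 := cj d dH fun r hr => by simpa [mul_assoc] using mem_XX (δ := cn d) (conj_mem_of_norm (nR dH) hr)
  have key : ∀ e s, s ∈ R → e ^ 3 = 1 → (s * e) ^ 3 = 1 → (∀ r ∈ R, r⁻¹ * (e * r * e⁻¹) ∈ XX R (cn d)) →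
      (∀ x ∈ XX R (cn d), e * x * e⁻¹ ∈ XX R (cn d)) → ∀ r ∈ R, r⁻¹ * (s * e * r * (s * e)⁻¹) ∈ XX R (cn d) := fun e s hs e3 h3 k1 k2 r hr => by
    obtain ⟨j, hj⟩ := pR ⟨s, hs⟩
    have x1 := k1 s hs
    have : s ∈ XX R (cn d) := mem_of_cube j (congrArg Subtype.val hj) (by
      convert inv_mem (mul_mem (mul_mem (c1 _ (inv_mem hs) _ x1) x1) (k2 _ x1)) using 1
      rw [eq_inv_iff_mul_eq_one, ← h3, ← mul_one (_ * _), ← e3]; simp [pow_succ, mul_assoc])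
    convert mul_mem (mul_mem (c1 _ (inv_mem hr) _ this) (k1 r hr)) (inv_mem this) using 1; simp [mul_assoc]
  refine le_normalizer_iff.2 fun n hn => cj n hn fun r hr => ?_
  have r' := conj_mem_of_norm (nR hn) hr
  have n3 : (n * d * n⁻¹) ^ 3 = 1 := by rw [conj_pow, d3]; simp
  rcases h n hn with k | k
  · simpa [mul_assoc] using key d _ k d3 (by simpa using n3) (fun r => mem_XX) c2 _ r'
  · simpa [mul_assoc] using key (d * d) _ k (by rw [(Commute.refl d).mul_pow, d3, one_mul]) (by rwa [inv_mul_cancel_right])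
      (fun r hr => by simpa [mul_assoc] using mul_mem (mem_XX (δ := cn d) hr) (c2 _ (mem_XX (δ := cn d) hr)))
      (fun x hx => by simpa [mul_assoc] using c2 _ (c2 _ hx)) _ r'

/-- normal subgroups and subgroups of prime index -/
theorem le_or_idx [Finite G] {p : ℕ} (hp : p.Prime) {P : Subgroup G} (h : P.index = p) (M : Subgroup G) [M.Normal] :
    M ≤ P ∨ P.relIndex M = p := by
  rw [← relIndex_sup_right_of_norm (le_normalizer_of_normal : P ≤ N(M))]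
  exact ((Nat.dvd_prime hp).1 (h ▸ relIndex_dvd_index_of_le le_sup_right)).imp_left fun e => le_sup_left.trans (relIndex_eq_one.1 e)
theorem le_of_idx [Finite G] {p : ℕ} (hp : p.Prime) {P : Subgroup G} (h : P.index = p) (M : Subgroup G) [M.Normal] (n : ¬ p ∣ #M) :
    M ≤ P := (le_or_idx hp h M).resolve_right fun e => n (e ▸ relIndex_dvd_card _ _)
theorem not_dvd_two [Finite G] {p : ℕ} (hp : p.Prime) (p2 : p ≠ 2) (h : IsPGroup 2 X) : ¬ p ∣ #X := fun d =>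
  let ⟨_, e⟩ := IsPGroup.iff_card.1 h
  p2 ((Nat.prime_dvd_prime_iff_eq hp Nat.prime_two).1 (hp.dvd_of_dvd_pow (e ▸ d)))
end

theorem cp : CP.{u} := fun G _ _ z B K R δ h => by
  have dR : ∀ r ∈ R, δ r ∈ R := fun r hr => (mul_mem_cancel_left (inv_mem hr)).1 (h.dK r (h.RK hr))
  have XR : XX R δ ≤ R := XX_le fun r hr => h.dK r (h.RK hr)
  have dX : ∀ x ∈ XX R δ, δ x ∈ XX R δ := fun x hx => by
    induction hx using closure_induction with
    | mem x hx =>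
      obtain ⟨r, hr, rfl⟩ := hx
      rw [h.au.mul _ (inv_mem (h.RK hr)) _ (h.RK (dR r hr)), h.au.inv (h.RK hr)]; exact mem_XX (dR r hr)
    | one => rw [h.au.one]; exact one_mem _
    | mul x y hx hy a b => rw [h.au.mul _ (h.RK (XR hx)) _ (h.RK (XR hy))]; exact mul_mem a b
    | inv x hx a => rw [h.au.inv (h.RK (XR hx))]; exact inv_mem a
  obtain ⟨π, sj, hπ⟩ := h.pi
  have := Fact.mk (by norm_num : Nat.Prime 23)
  obtain ⟨m, hm⟩ := exists_prime_orderOf_dvd_card' (G := M24) 23 (by rw [card_M24]; norm_num)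
  obtain ⟨k, rfl⟩ := sj m
  obtain ⟨y, hy, e⟩ := fixc h.au h.d3 h.RK h.pR dR k.2 (h.dK _ k.2)
  have ky := mul_mem k.2 (h.RK hy)
  have pk : π ⟨_, ky⟩ = π k := by rw [show (⟨_, ky⟩ : K) = k * ⟨y, h.RK hy⟩ from rfl, map_mul, (hπ ⟨y, _⟩).2 hy, mul_one]
  obtain ⟨j, hj⟩ := h.pR ⟨_, (hπ (⟨_, ky⟩ ^ 23)).1 (by rw [map_pow, pk, ← hm, pow_orderOf_eq_one])⟩
  have gK := pow_mem ky (2 ^ j)
  have dg : δ ((k * y) ^ 2 ^ j) = (k * y) ^ 2 ^ j := by rw [h.au.pow ky, e]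
  refine ⟨XR, _, gK, h.pR.to_le XR, h.au.sub (XR.trans h.RK) dX, fun x hx => h.d3 x (h.RK (XR hx)),
    (pow_right_comm ..).trans (congrArg Subtype.val hj), fun e => ?_, h.nX (h.KB gK), fun x hx => by
      rw [h.au.conj gK (h.RK (XR hx)), dg], le_antisymm (XX_le fun x hx => mem_XX (XR hx)) (XX_le fun r hr => ?_)⟩
  · have a : π k ^ 2 ^ j = 1 := by rw [← pk, ← map_pow, show (⟨_, ky⟩ : K) ^ 2 ^ j = 1 from Subtype.ext e, map_one]
    exact absurd (this.out.dvd_of_dvd_pow (hm ▸ orderOf_dvd_of_pow_eq_one a)) (by decide)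
  · obtain ⟨x, hx, e⟩ := fixc h.au h.d3 (XR.trans h.RK) (h.pR.to_le XR) dX (h.RK hr) (mem_XX hr)
    rw [h.au.mul _ (h.RK hr) _ (h.RK (XR hx))] at e
    convert mem_XX (δ := δ) (inv_mem hx) using 1
    rw [h.au.inv (h.RK (XR hx)), inv_inv, eq_mul_inv_iff_mul_eq, mul_assoc, e, inv_mul_cancel_left]

theorem n0 : N0.{u} := fun G _ Gc Gn fin ⟨e⟩ h3 => by
  have : Finite (Gc.subgroupOf Gn) := .of_injective (fun x => (⟨x.1.1, x.2⟩ : Gc)) fun _ _ e =>
    Subtype.ext (Subtype.ext (Subtype.mk.inj e))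
  have : Finite Gn := Nat.finite_of_card_ne_zero (by
    rw [← (Gc.subgroupOf Gn).card_mul_index]; exact mul_ne_zero Nat.card_pos.ne' (by rw [← relIndex, h3]; decide))
  let ρ : Gn →* Equiv.Perm (Fin 3) × M24 := e.toMonoidHom.comp (QuotientGroup.mk' _)
  have sj : Surjective ρ := e.surjective.comp (QuotientGroup.mk'_surjective _)
  have kr : ρ.ker = pCore 2 Gn := by ext; simp [ρ]
  let ρ1 := (MonoidHom.fst _ _).comp ρ
  have s1 : Surjective ρ1 := Prod.fst_surjective.comp sj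
  have m := fun (H : Subgroup Gn) (n : Gn) => (mem_map_iff_mem Gn.subtype_injective : n.1 ∈ H.map Gn.subtype ↔ n ∈ H)
  have nm := fun (H : Subgroup Gn) [H.Normal] => (le_normalizer_iff.2 (by
    rintro n hn _ ⟨x, hx, rfl⟩; exact ⟨_, Normal.conj_mem ‹_› x hx ⟨n, hn⟩, rfl⟩) : Gn ≤ N(H.map Gn.subtype))
  have pR : IsPGroup 2 ρ.ker := kr ▸ H1.pCore_isPGroup
  have l0 := le_of_idx Nat.prime_three h3 ρ.ker (not_dvd_two Nat.prime_three (by decide) pR)
  have sπ : Surjective (((MonoidHom.snd _ _).comp ρ).comp ρ1.ker.subtype) := fun y =>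
    let ⟨n, hn⟩ := sj (1, y); ⟨⟨n, congrArg Prod.fst hn⟩, congrArg Prod.snd hn⟩
  have l1 : ρ1.ker ≤ Gc.subgroupOf Gn := (le_or_idx Nat.prime_three h3 _).resolve_right fun i => by
    have j := index_map_eq ((Gc.subgroupOf Gn).subgroupOf ρ1.ker) sπ fun x hx => l0 (Prod.ext x.2 hx)
    rw [← relIndex, i] at j
    have := simple_M24
    have := Fact.mk Nat.prime_three
    obtain ⟨P, j⟩ : ∃ P : Subgroup M24, P.index = 3 := ⟨_, j⟩
    rcases (P.normalCore_normal).eq_bot_or_eq_top with k | k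
    · have := Nat.card_le_card_of_injective _ ((MonoidHom.ker_eq_bot_iff _).1 (P.normalCore_eq_ker ▸ k))
      rw [card_M24, Nat.card_perm, ← index, j] at this; simp [Nat.factorial] at this
    · rw [eq_top_iff.2 (k.ge.trans P.normalCore_le)] at j; simp at j
  have KB : ρ1.ker.map Gn.subtype ≤ Gc ⊓ Gn := by rintro _ ⟨x, hx, rfl⟩; exact ⟨l1 hx, x.2⟩
  have c2 : #((Gc.subgroupOf Gn).map ρ1) = 2 := by
    have := ((Gc.subgroupOf Gn).map ρ1).card_mul_index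
    rw [index_map_eq _ s1 l1, ← relIndex, h3, Nat.card_perm, Nat.card_fin] at this
    exact Nat.eq_of_mul_eq_mul_right three_pos this
  have RK : ρ.ker.map Gn.subtype ≤ ρ1.ker.map Gn.subtype := map_mono fun x hx => congrArg Prod.fst hx
  refine ⟨_, ρ.ker.map Gn.subtype, ρ, ⟨sj, fun n => (m ρ.ker n).symm, map_subtype_le _, pR.map _, m ρ1.ker, KB, fun x hx h => ?_⟩,
    fun d d3 d1 d2 => ⟨KB, nm _, ?_, RK, nm _, pR.map _, ?_, d.2, congrArg Subtype.val d3, fun c => d1 ?_, ?_,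
      norm_XX (nm _) (map_subtype_le _) (pR.map _) d.2 (congrArg Subtype.val d3) fun n hn => ?_⟩⟩
  · by_contra s
    obtain ⟨t, ht⟩ := (by decide : ∀ s : Equiv.Perm (Fin 3), s ≠ 1 → ∃ t, t * s * t⁻¹ ≠ s) _ (mt (m ρ1.ker ⟨x, hx⟩).2 s)
    obtain ⟨n, rfl⟩ := s1 t
    obtain ⟨y, -, hy⟩ := (Nat.card_eq_two_iff' 1).1 c2
    exact ht (congrArg Subtype.val ((hy ⟨_, n * ⟨x, hx⟩ * n⁻¹, h n n.2, by simp⟩ fun e => s ((m ρ1.ker ⟨x, hx⟩).2 (by
      simpa using congrArg Subtype.val e))).trans (hy ⟨_, ⟨x, hx⟩, by simpa [mem_subgroupOf] using h 1 (one_mem _), rfl⟩ fun e => s ((m ρ1.ker ⟨x, hx⟩).2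
        (congrArg Subtype.val e))).symm))
  · rw [← subgroupOf_map_subtype, relIndex_map_map_of_injective _ _ Gn.subtype_injective, relIndex_ker, c2]
  · refine ⟨(((MonoidHom.snd _ _).comp ρ).comp ρ1.ker.subtype).comp (equivMapOfInjective _ _ Gn.subtype_injective).symm.toMonoidHom,
      sπ.comp (MulEquiv.surjective _), fun k => ?_⟩
    obtain ⟨k, rfl⟩ := (equivMapOfInjective _ _ Gn.subtype_injective).surjective k
    simp only [MonoidHom.comp_apply, MulEquiv.coe_toMonoidHom, MulEquiv.symm_apply_apply]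
    exact ⟨fun h => (m _ k.1).2 (Prod.ext k.2 h), fun h => congrArg Prod.snd ((m _ k.1).1 h)⟩
  · have a : ρ1 d ^ 2 = 1 := c2 ▸ congrArg Subtype.val (pow_card_eq_one' (x := (⟨ρ1 d, d, c, rfl⟩ : (Gc.subgroupOf Gn).map ρ1)))
    have b : ρ1 d ^ 3 = 1 := by rw [← map_pow, d3, map_one]
    rwa [pow_succ, a, one_mul] at b
  · rintro _ ⟨k, hk, rfl⟩
    exact (m _ (k⁻¹ * (d * k * d⁻¹))).2 (Prod.ext (by simp [show (ρ k).1 = 1 from hk]) (by simp [d2]))
  · refine ((by decide : ∀ t c : Equiv.Perm (Fin 3), c ^ 3 = 1 → t * c * t⁻¹ * c⁻¹ = 1 ∨ t * c * t⁻¹ * (c * c)⁻¹ = 1) (ρ ⟨n, hn⟩).1 (ρ d).1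
      (by rw [← Prod.pow_fst, ← map_pow, d3, map_one]; rfl)).imp (fun k => ?_) fun k => ?_
    · exact (m ρ.ker (⟨n, hn⟩ * d * ⟨n, hn⟩⁻¹ * d⁻¹)).2 (MonoidHom.mem_ker.2 (Prod.ext (by simpa using k) (by simp [d2])))
    · exact (m ρ.ker (⟨n, hn⟩ * d * ⟨n, hn⟩⁻¹ * (d * d)⁻¹)).2 (MonoidHom.mem_ker.2 (Prod.ext (by simpa using k) (by simp [d2])))

theorem cen6 : center (Equiv.Perm (Fin 6)) = ⊥ := by_contra fun n =>
  absurd (mem_center_iff.1 (Equiv.Perm.alternatingGroup_le_of_normal (by simp) ((nontrivial_iff_ne_bot _).2 n)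
    (show Equiv.swap 0 1 * Equiv.swap 0 2 ∈ _ by simp [Equiv.Perm.mem_alternatingGroup])) (Equiv.swap 0 1)) (by decide)

theorem l0 : L0.{u} := fun L _ _ ⟨A, B, _, _, hi, hs, ⟨e⟩, cB, T, _, cT, ⟨f⟩, iT⟩ => by
  let π := QuotientGroup.mk' (pCore 2 L)
  have sπ : Surjective π := QuotientGroup.mk'_surjective _
  have kπ : ∀ x, π x = 1 ↔ x ∈ pCore 2 L := QuotientGroup.eq_one_iff
  have bj : Bijective ((QuotientGroup.mk' B).comp A.subtype) := ⟨(injective_iff_map_eq_one _).2 fun a h =>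
    Subtype.ext (mem_bot.1 (hi.le ⟨a.2, (QuotientGroup.eq_one_iff _).1 h⟩)), fun y => by
      obtain ⟨y, rfl⟩ := QuotientGroup.mk'_surjective _ y
      obtain ⟨a, ha, b, hb, rfl⟩ := mem_sup_of_normal_right.1 (hs.ge (mem_top y))
      exact ⟨⟨a, ha⟩, by simp [(QuotientGroup.eq_one_iff _).2 hb]⟩⟩
  let lam : L →* SL3 := (((MulEquiv.ofBijective _ bj).symm.trans e).toMonoidHom.comp (QuotientGroup.mk' B)).comp π
  have la : ∀ l (a : A), π l = a → lam l = e a := fun l a h =>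
    congrArg e ((MulEquiv.symm_apply_eq _).2 (congrArg (QuotientGroup.mk' B) h))
  have kr : ∀ l, l ∈ lam.ker ↔ π l ∈ B := fun l => by simp [lam]
  have ck : #lam.ker = #(pCore 2 L) * 2160 := by
    rw [← cB, show lam.ker = B.comap π from Subgroup.ext kr, ← card_mul_relIndex (H := pCore 2 L) fun x hx => by simp [(kπ x).2 hx],
      ← map_comap_eq_self_of_surjective sπ B, ← relIndex_ker, QuotientGroup.ker_mk', map_comap_eq_self_of_surjective sπ]
  let g := f.toMonoidHom.comp (QuotientGroup.mk' T)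
  have sg : Surjective g := f.surjective.comp (QuotientGroup.mk'_surjective _)
  have kg : ∀ b, g b = 1 ↔ b ∈ T := by simp [g]
  refine ⟨lam, fun y => let ⟨l, h⟩ := sπ (e.symm y); ⟨l, by simpa using la l _ h⟩, fun P hP => le_of_idx (by norm_num) hP _ fun d => ?_,
    fun y y3 => ?_, ck ▸ Dvd.dvd.mul_left (by norm_num) _, fun W lW nW pW τ hτ h => ?_⟩
  · rw [ck] at d
    exact ((by norm_num : Nat.Prime 7).dvd_mul.1 d).elim (not_dvd_two (by norm_num) (by decide) H1.pCore_isPGroup) (by norm_num)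
  · obtain ⟨l, h⟩ := sπ (e.symm y)
    have a3 : e.symm y ^ 3 = 1 := by rw [← map_pow, y3, map_one]
    obtain ⟨j, hj⟩ := H1.pCore_isPGroup (p := 2) ⟨l ^ 3, (kπ _).1 (by rw [map_pow, h]; exact congrArg Subtype.val a3)⟩
    have k : π (l ^ (2 ^ j * 2 ^ j)) = e.symm y := by
      rw [map_pow, h, ← coe_pow, pow_eq_pow_mod _ a3, ← mul_pow, Nat.pow_mod]; simp
    refine ⟨l ^ (2 ^ j * 2 ^ j), by rw [pow_right_comm, pow_mul, show (l ^ 3) ^ 2 ^ j = 1 from congrArg Subtype.val hj, one_pow], by simpa using la _ _ k,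
      fun t ht => (kπ _).1 ?_⟩
    rw [map_commutatorElement, k, commutatorElement_eq_one_iff_commute]
    exact commute_of_normal_of_disjoint A B ‹_› ‹_› (disjoint_iff.2 hi) _ _ (e.symm y).2 ((kr t).1 ht)
  · have lf : ∀ b : B, ∃ t ∈ lam.ker, π t = b := fun b => let ⟨t, h⟩ := sπ b; ⟨t, (kr t).2 (h ▸ b.2), h⟩
    have nW' : ((W.map π).subgroupOf B).Normal := ⟨fun x ⟨w, hw, e⟩ b => let ⟨t, ht, e'⟩ := lf b
      ⟨_, conj_mem_of_norm (nW ht) hw, by simp [e, e']⟩⟩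
    have pW' : IsPGroup 2 ((W.map π).subgroupOf B) := (pW.map π).comap_subtype
    have := nW'.map g sg
    have z : ((W.map π).subgroupOf B).map g = ⊥ := by_contra fun n => not_dvd_two Nat.prime_three (by decide) (pW'.map g)
      ((show 3 ∣ _ by rw [nat_card_alternatingGroup]; simp [Nat.factorial]).trans (card_dvd (Equiv.Perm.alternatingGroup_le_of_normal (by simp)
        ((nontrivial_iff_ne_bot _).2 n))))
    have i := inf_eq_bot_of_prime (X := T) (cT ▸ Nat.prime_three) fun l => not_dvd_two Nat.prime_three (by decide) pW' (cT ▸ card_dvd l)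
    have WO : W ≤ pCore 2 L := fun w hw => (kπ w).1 (congrArg Subtype.val (mem_bot.1 (i.le (show (⟨π w, (kr w).1 (lW hw)⟩ : B) ∈ _ from
      mem_inf.2 ⟨(kg _).1 (z.le ⟨_, ⟨w, hw, rfl⟩, rfl⟩), w, hw, rfl⟩))))
    rw [sup_eq_right.2 WO] at h
    have c : ∀ b : B, b * ⟨π τ, (kr τ).1 hτ⟩ = ⟨π τ, (kr τ).1 hτ⟩ * b := fun b => by
      obtain ⟨t, ht, e⟩ := lf b
      have := (kπ _).2 (h t ht)
      rw [map_commutatorElement, e, commutatorElement_eq_one_iff_mul_comm] at this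
      exact Subtype.ext this.symm
    by_contra n
    have tT := (kg ⟨π τ, (kr τ).1 hτ⟩).1 (mem_bot.1 (cen6.le (mem_center_iff.2 fun y => by
      obtain ⟨b, rfl⟩ := sg y; rw [← map_mul, c, map_mul])))
    have := (eq_bot_or_eq_of_prime (cT ▸ Nat.prime_three) (zpowers_le.2 tT)).resolve_left
      (by simpa [Subtype.ext_iff, kπ] using n)
    rw [← this, cent_zpowers, (eq_top_iff' _).2 fun b => mem_cent1.2 (c b)] at iT
    simp at iT
end H19.AM
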