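/-
Coverings of invariant graphs from split stabilizers (S5590: GC, CO).
-/
import Cfsg.Agent.H15.BX0
import Cfsg.Agent.H19.AM1

set_option autoImplicit false
set_option linter.unusedVariables false
set_option linter.unusedSectionVars false
set_option linter.unusedSimpArgs false

namespace H19.BX
open Cfsg H19 H15.BX Subgroup Function Module
open H1.RC (Rp)
open scoped commutatorElement Pointwise

universe u v
variable {F V : Type u} [Field F] [AddCommGroup V] [Module F V] {G : Type} [Group G] {X : Type v} [Group X] {Ω : Type}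
  {κ : X →* G} {S T M N : Subgroup G} {ρ : G → End F V} {d D : X → V} {α : G →* Equiv.Perm Ω} {O : Set Ω}
  {a : Ω → Ω → Prop} {x₀ : Ω}

theorem d_inv (h : Ex κ T ρ d) {k : X} (e : κ k = 1) : d k⁻¹ = -d k :=
  eq_neg_of_add_eq_zero_left (by rw [← h.add _ _ (by simp [e]) e, inv_mul_cancel, h.one])

theorem rp_ap (h : Rp T ρ) {x y : G} (a : x ∈ T) (b : y ∈ T) (v : V) : ρ x (ρ y v) = ρ (x * y) v := by rw [h x a y b]; rfl

/-- a subgroup which covers `T` and on which `d` vanishes -/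
theorem sp_of (h : Ex κ T ρ d) (K : Subgroup X) (c : ∀ g ∈ T, ∃ k ∈ K, κ k = g) (z : ∀ k ∈ K, κ k = 1 → d k = 0) :
    Sp κ T ρ d := by
  choose! k k1 k2 using c
  have i : ∀ x, κ x ∈ T → ∀ l ∈ K, κ l = κ x → d (x * (k (κ x))⁻¹) = d (x * l⁻¹) := fun x m l p e => by
    have := h.add (x * l⁻¹) (l * (k (κ x))⁻¹) (by simp [e]) (by simp [e, k2 _ m])
    rw [z _ (mul_mem p (inv_mem (k1 _ m))) (by simp [e, k2 _ m]), add_zero] at this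
    rw [← this]; congr 1; group
  refine ⟨fun x => d (x * (k (κ x))⁻¹), fun x y p q => ?_, fun x e => ?_⟩
  · show d _ = d _ + ρ _ (d _)
    rw [i _ (by simpa using mul_mem p q) _ (mul_mem (k1 _ p) (k1 _ q)) (by simp [k2 _ p, k2 _ q]),
      ← h.eqv x _ p (by simp [k2 _ q]), add_comm, ← h.add _ _ (by simp [k2 _ q]) (by simp [k2 _ p])]
    congr 1; group
  · show d _ = _
    rw [i _ (e ▸ one_mem _) 1 (one_mem _) (by simp [e])]; simp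

section
variable {P : Type v} [MulAction X P] {pr : P → Ω}

structure Pc (κ : X →* G) (d : X → V) (α : G →* Equiv.Perm Ω) (T : Subgroup G) (O : Set Ω) (pr : P → Ω) : Prop where
  mem : ∀ p, pr p ∈ O
  eqv : ∀ (γ : X) p, pr (γ • p) = α (κ γ) (pr p)
  lift : ∀ p, ∀ g ∈ T, α g (pr p) = pr p → ∃ γ : X, κ γ = g ∧ γ • p = p
  inj : ∀ (γ : X) (p : P), κ γ = 1 → (γ • p = p ↔ d γ = 0)
  onto : ∀ y ∈ O, ∃ p, pr p = y
  fib : ∀ p q, pr p = pr q → ∃ γ : X, κ γ = 1 ∧ γ • p = q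

def Ad (κ : X →* G) (α : G →* Equiv.Perm Ω) (a : Ω → Ω → Prop) (pr : P → Ω) (p q : P) : Prop :=
  a (pr p) (pr q) ∧ ∀ γ : X, γ • p = p → α (κ γ) (pr q) = pr q → γ • q = q

theorem Pc.smul (c : Pc κ d α T O pr) (e : Ey κ T ρ d) (g : Gm α T O a x₀) (γ : X) {p q : P} (h : Ad κ α a pr p q) :
    Ad κ α a pr (γ • p) (γ • q) := by
  refine ⟨by rw [c.eqv, c.eqv]; exact g.act _ (e.ran _) _ _ h.1, fun δ h1 h2 => ?_⟩
  have := h.2 (γ⁻¹ * δ * γ) (by rw [mul_smul, mul_smul, h1, inv_smul_smul]) (by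
    rw [← c.eqv, mul_smul, mul_smul, c.eqv, c.eqv δ, h2, ← c.eqv, inv_smul_smul])
  rwa [mul_smul, mul_smul, inv_smul_eq_iff] at this

theorem Pc.symm (c : Pc κ d α T O pr) (e : Ey κ T ρ d) (g : Gm α T O a x₀) {p q : P} (h : Ad κ α a pr p q) :
    Ad κ α a pr q p := by
  refine ⟨g.symm _ _ h.1, fun γ h1 h2 => ?_⟩
  obtain ⟨δ, e1, e2⟩ := c.lift p _ (e.ran γ) h2
  have e3 := h.2 δ e2 (by rw [e1, ← c.eqv, h1])
  have k : κ (δ⁻¹ * γ) = 1 := by simp [e1]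
  have := (c.inj _ p k).2 ((c.inj _ q k).1 (by rw [mul_smul, h1, inv_smul_eq_iff, e3]))
  rwa [mul_smul, inv_smul_eq_iff, e2] at this

theorem Pc.key (c : Pc κ d α T O pr) (e : Ey κ T ρ d) {r r' : P} (h : pr r = pr r') (z : Z0 S ρ)
    (f : ∀ g ∈ S, ∃ γ : X, κ γ = g ∧ γ • r = r ∧ γ • r' = r') : r = r' := by
  obtain ⟨k, k1, rfl⟩ := c.fib r r' h
  refine ((c.inj k r k1).2 (z _ fun g m => ?_)).symm
  obtain ⟨γ, rfl, h1, h2⟩ := f g m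
  have := (c.inj (k⁻¹ * (γ * k * γ⁻¹)) r (by simp [k1])).1 (by
    rw [mul_smul, mul_smul, mul_smul, inv_smul_eq_iff.2 h1.symm, h2, inv_smul_smul])
  rw [e.add _ _ (by simp [k1]) (by simp [k1]), d_inv e.toEx k1, e.eqv _ _ (e.ran _) k1] at this
  exact (neg_add_eq_zero.1 this).symm

theorem Pc.ex0 (c : Pc κ d α T O pr) (e : Ey κ T ρ d) (g : Gm α T O a x₀) (p : P) (y : Ω) (h : a (pr p) y)
    (z : Z1 (T ⊓ Sb α (pr p) ⊓ Sb α y) ρ) : ∃ q, Ad κ α a pr p q ∧ pr q = y := by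
  obtain ⟨q, rfl⟩ := c.onto y (g.mem _ _ (g.symm _ _ h))
  have l : ∀ g ∈ T ⊓ Sb α (pr p) ⊓ Sb α (pr q), ∃ γ γ' : X, κ γ = g ∧ κ γ' = g ∧ γ • p = p ∧ γ' • q = q := fun g m => by
    obtain ⟨γ, h1, h2⟩ := c.lift p g m.1.1 m.1.2
    obtain ⟨γ', h3, h4⟩ := c.lift q g m.1.1 m.2
    exact ⟨γ, γ', h1, h3, h2, h4⟩
  choose! s t s1 t1 s2 t2 using l
  have i : ∀ g ∈ T ⊓ Sb α (pr p) ⊓ Sb α (pr q), ∀ γ γ' : X, κ γ = g → κ γ' = g → γ • p = p → γ' • q = q →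
      d (s g * (t g)⁻¹) = d (γ * γ'⁻¹) := fun g m γ γ' h1 h2 h3 h4 => by
    have a1 := (c.inj (s g * γ⁻¹) p (by simp [h1, s1 g m])).1 (by rw [mul_smul, inv_smul_eq_iff.2 h3.symm, s2 g m])
    have a2 := (c.inj (γ' * (t g)⁻¹) q (by simp [h2, t1 g m])).1 (by rw [mul_smul, inv_smul_eq_iff.2 (t2 g m).symm, h4])
    have : s g * (t g)⁻¹ = s g * γ⁻¹ * (γ * γ'⁻¹ * (γ' * (t g)⁻¹)) := by group
    rw [this, e.add _ _ (by simp [h1, s1 g m]) (by simp [h1, t1 g m]), e.add (γ * γ'⁻¹) _ (by simp [h1, h2]) (by simp [h2, t1 g m]),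
      a1, a2, zero_add, add_zero]
  have o : d (s 1 * (t 1)⁻¹) = 0 := by rw [i 1 (one_mem _) 1 1 (map_one _) (map_one _) (one_smul ..) (one_smul ..)]; simp [e.one]
  obtain ⟨v, hv⟩ := z (fun g => d (s g * (t g)⁻¹)) o fun x m y n => by
    show d _ = d _ + ρ _ (d _)
    rw [i _ (mul_mem m n) (s x * s y) (t x * t y) (by simp [s1, m, n]) (by simp [t1, m, n]) (by rw [mul_smul, s2 y n, s2 x m])
      (by rw [mul_smul, t2 y n, t2 x m]), ← s1 x m, ← e.eqv _ _ (e.ran _) (by simp [s1 y n, t1 y n]), s1 x m, add_comm,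
      ← e.add _ _ (by simp [s1 y n, t1 y n]) (by simp [s1 x m, t1 x m])]
    congr 1; group
  obtain ⟨k, k1, k2⟩ := e.onto (-v) (by
    rw [map_neg, sub_eq_zero.1 ((hv 1 (one_mem _)).symm.trans o)])
  have pk : pr (k • q) = pr q := by rw [c.eqv, k1]; simp
  refine ⟨k • q, ⟨pk ▸ h, fun γ h1 h2 => ?_⟩, pk⟩
  have m : κ γ ∈ T ⊓ Sb α (pr p) ⊓ Sb α (pr q) := ⟨⟨e.ran γ, mem_Sb.2 (by rw [← c.eqv, h1])⟩, mem_Sb.2 (pk ▸ h2)⟩
  have := (c.inj (k⁻¹ * (γ * k * γ⁻¹ * (γ * (t (κ γ))⁻¹))) q (by simp [k1, t1 _ m])).2 (by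
    rw [e.add _ _ (by simp [k1]) (by simp [k1, t1 _ m]), e.add _ _ (by simp [k1]) (by simp [t1 _ m]), d_inv e.toEx k1,
      e.eqv _ _ (e.ran _) k1, ← i _ m γ _ rfl (t1 _ m) h1 (t2 _ m), k2, hv _ m, map_neg]; abel)
  rwa [mul_smul, mul_smul, mul_smul, mul_smul, mul_smul, inv_smul_smul, inv_smul_eq_iff.2 (t2 _ m).symm, inv_smul_eq_iff] at this

theorem Pc.ex (c : Pc κ d α T O pr) (e : Ey κ T ρ d) (g : Gm α T O a x₀) (l : Lc α T a ρ) (p : P) (y : Ω) (h : a (pr p) y) :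
    ∃ q, Ad κ α a pr p q ∧ pr q = y := by
  obtain ⟨u, m, -, z⟩ := l.z1 _ _ h
  obtain ⟨γ, rfl⟩ := e.sur u m
  obtain ⟨q, h1, h2⟩ := c.ex0 e g (γ • p) (α (κ γ) y) (by rw [c.eqv]; exact g.act _ m _ _ h) (by rwa [c.eqv])
  exact ⟨γ⁻¹ • q, by simpa using c.smul e g γ⁻¹ h1, by rw [c.eqv, h2]; simp⟩

theorem Pc.cw (c : Pc κ d α T O pr) (e : Ey κ T ρ d) (g : Gm α T O a x₀) (l : Lc α T a ρ) :
    Cw κ d α T O a pr (Ad κ α a pr) := by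
  refine ⟨c.mem, c.eqv, c.lift, c.inj, c.onto, c.fib, c.smul e g, c.symm e g, And.left, c.ex e g l,
    fun {p q q'} h h' k => ?_, fun {p q r} h h' k => ?_⟩
  · obtain ⟨u, m, z, -⟩ := l.z1 _ _ h.1
    obtain ⟨γ, rfl⟩ := e.sur u m
    rw [← c.eqv, ← c.eqv] at z
    have k' : pr (γ • q) = pr (γ • q') := by rw [c.eqv, c.eqv, k]
    refine MulAction.injective γ (c.key e k' z fun u n => ?_)
    obtain ⟨δ, rfl, h1⟩ := c.lift _ u n.1.1 n.1.2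
    exact ⟨δ, rfl, (c.smul e g γ h).2 δ h1 n.2, (c.smul e g γ h').2 δ h1 (k' ▸ n.2)⟩
  · obtain ⟨r', h1, h2⟩ := c.ex e g l q _ k
    obtain ⟨u, m, z⟩ := l.z3 _ _ _ h.1 h'.1 k
    obtain ⟨γ, rfl⟩ := e.sur u m
    rw [← c.eqv, ← c.eqv, ← c.eqv] at z
    have k' : pr (γ • r) = pr (γ • r') := by rw [c.eqv, c.eqv, h2]
    obtain rfl : r = r' := MulAction.injective γ (c.key e k' z fun u n => by
      obtain ⟨δ, rfl, h3⟩ := c.lift _ u n.1.1.1 n.1.1.2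
      exact ⟨δ, rfl, (c.smul e g γ h').2 δ h3 n.2, (c.smul e g γ h1).2 δ ((c.smul e g γ h).2 δ h3 n.1.2) (k' ▸ n.2)⟩)
    exact h1

end

theorem gc [NeZero (2 : F)] [FiniteDimensional F V] : GC.{u, v} F V := by
  intro G _ X _ Ω κ T ρ d α O a x₀ e g l ⟨D, D1, D2⟩
  have D3 : ∀ x y, κ x ∈ Sb α x₀ → κ y ∈ Sb α x₀ → D (x * y) = D x + ρ (κ x) (D y) := fun x y p q =>
    D1 x y ⟨e.ran x, p⟩ ⟨e.ran y, q⟩
  have D0 : D 1 = 0 := by rw [D2 1 (map_one κ), e.one]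
  let K : Subgroup X := ⟨⟨⟨{x | κ x ∈ Sb α x₀ ∧ D x = 0}, fun {x y} p q => ⟨by simpa using mul_mem p.1 q.1, by
    rw [D3 _ _ p.1 q.1, p.2, q.2]; simp⟩⟩, by simpa using D0⟩, fun {x} p => ⟨by simpa using p.1, by
      have := D3 x⁻¹ x (by simpa using p.1) p.1
      rw [inv_mul_cancel, D0, p.2] at this; simpa using this.symm⟩⟩
  have hk : ∀ y, κ y ∈ Sb α x₀ → ∃ k, κ k = 1 ∧ k * y ∈ K := fun y m => by
    have := D3 1 y (by simp) m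
    rw [one_mul, D0, zero_add, map_one] at this
    obtain ⟨k, k1, k2⟩ := e.onto (-D y) (by rw [map_neg, ← this])
    exact ⟨k, k1, by simpa [k1] using m, by rw [D3 _ _ (by simp [k1]) m, D2 _ k1, k2, k1, ← this]; simp⟩
  let pr : X ⧸ K → Ω := Quotient.lift (fun δ => α (κ δ) x₀) fun x y h => by
    have : α (κ (x⁻¹ * y)) x₀ = x₀ := (QuotientGroup.leftRel_apply.1 h).1
    show α (κ x) x₀ = α (κ y) x₀
    conv_lhs => rw [← this]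
    simp
  have pm : ∀ δ : X, pr δ = α (κ δ) x₀ := fun _ => rfl
  have sm : ∀ γ δ : X, γ • (δ : X ⧸ K) = (γ * δ : X) := fun _ _ => rfl
  refine ⟨X ⧸ K, inferInstance, pr, _, Pc.cw ⟨fun p => ?_, fun γ p => ?_, fun p u m h => ?_, fun γ p h => ?_, fun y m => ?_,
    fun p q h => ?_⟩ e g l⟩
  · obtain ⟨δ, rfl⟩ := QuotientGroup.mk_surjective p
    exact g.inv _ (e.ran δ) _ g.x0
  · obtain ⟨δ, rfl⟩ := QuotientGroup.mk_surjective p
    simp [sm, pm]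
  · obtain ⟨δ, rfl⟩ := QuotientGroup.mk_surjective p
    obtain ⟨x, rfl⟩ := e.sur u m
    obtain ⟨k, k1, k2⟩ := hk (δ⁻¹ * x * δ) (mem_Sb.2 (by rw [pm] at h; simp [h]))
    exact ⟨δ * k * δ⁻¹ * x, by simp [k1], by rw [sm, eq_comm, QuotientGroup.eq]; convert k2 using 1; group⟩
  · obtain ⟨δ, rfl⟩ := QuotientGroup.mk_surjective p
    have k : κ (δ⁻¹ * γ * δ⁻¹⁻¹) = 1 := by simp [h]
    have : γ • (δ : X ⧸ K) = δ ↔ d (δ⁻¹ * γ * δ⁻¹⁻¹) = 0 := by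
      rw [sm, eq_comm, QuotientGroup.eq, ← D2 _ k, ← mul_assoc, inv_inv]
      exact ⟨And.right, fun z => ⟨by simp [h], z⟩⟩
    rw [this, e.eqv _ _ (e.ran _) h]
    refine ⟨fun z => ?_, fun z => by simp [z]⟩
    rw [← e.fix h, ← map_one κ, ← mul_inv_cancel δ, map_mul, ← rp_ap e.rp (e.ran _) (e.ran _), z, map_zero]
  · obtain ⟨u, n, rfl⟩ := g.tr y m
    obtain ⟨x, rfl⟩ := e.sur u n
    exact ⟨x, rfl⟩
  · obtain ⟨δ, rfl⟩ := QuotientGroup.mk_surjective p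
    obtain ⟨δ', rfl⟩ := QuotientGroup.mk_surjective q
    obtain ⟨k, k1, k2⟩ := hk (δ⁻¹ * δ') (mem_Sb.2 (by rw [pm, pm] at h; simp [← h]))
    exact ⟨δ * k⁻¹ * δ⁻¹, by simp [k1], by rw [sm, QuotientGroup.eq]; convert k2 using 1; group⟩

theorem co [NeZero (2 : F)] [FiniteDimensional F V] : CO.{u, v} F V := by
  intro G _ X _ Ω κ T ρ d α O a x₀ P _ pr ad e g n c
  have m2 : ∀ {x y}, a x y → y ∈ O := fun h => g.mem _ _ (g.symm _ _ h)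
  obtain ⟨p₀, -⟩ := c.onto x₀ g.x0
  obtain ⟨σ, s1, -, s2⟩ := H19.AM.cl O P (fun x y => a x y) (fun p => ⟨pr p, c.mem p⟩) ad (fun _ _ => g.symm _ _)
    (fun _ => n.irr _) (fun _ _ => c.symm) (fun _ _ => c.nb)
    (fun p y h => (c.ex p y h).imp fun q k => ⟨k.1, Subtype.ext k.2⟩) (fun _ _ _ h k l => c.uniq h k (congrArg Subtype.val l))
    (fun _ _ _ => c.tri) (fun x y h => let ⟨w, k⟩ := n.d2 x x.2 y y.2 h; ⟨⟨w, m2 k.1⟩, k⟩)
    (fun x y w w' h1 h2 h3 h4 h5 h6 h7 h8 => (n.mu x y w w' (Subtype.coe_ne_coe.2 h1) h2 h3 h4 h5 h6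
      (Subtype.coe_ne_coe.2 h7) h8).elim fun v k => ⟨⟨v, m2 k.1⟩, k⟩)
    (fun x y w h1 h2 h3 h4 h5 => (n.pe x x.2 y w h1 (Subtype.coe_ne_coe.2 h2) (Subtype.coe_ne_coe.2 h3) h4 h5).elim
      fun v k => ⟨⟨v, m2 k.1⟩, k⟩) p₀
  replace s1 : ∀ x, pr (σ x) = x := fun x => congrArg Subtype.val (s1 x)
  let f : X → O → O := fun γ x => ⟨α (κ γ) x, g.inv _ (e.ran γ) _ x.2⟩
  have fm : ∀ γ δ x, f (γ * δ) x = f γ (f δ x) := fun _ _ _ => Subtype.ext (by simp [f])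
  have f1 : ∀ γ x, κ γ = 1 → f γ x = x := fun _ _ h => Subtype.ext (by simp [f, h])
  have st : ∀ (γ : X) x y, a x.1 y.1 → γ • σ x = σ (f γ x) → γ • σ y = σ (f γ y) := fun γ x y h k =>
    c.uniq (c.smul γ (s2 x y h)) (k ▸ s2 _ _ (g.act _ (e.ran γ) _ _ h)) (by rw [c.eqv, s1, s1])
  let K : Subgroup X := ⟨⟨⟨{γ | ∀ x, γ • σ x = σ (f γ x)}, fun {x y} p q z => by rw [mul_smul, q, p, fm]⟩,
    fun z => by rw [one_smul, f1 _ _ (map_one κ)]⟩, fun {x} p z => by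
      rw [inv_smul_eq_iff, p, ← fm, f1 _ _ (by simp)]⟩
  let x : O := ⟨x₀, g.x0⟩
  refine sp_of e.toEx K (fun u m => ?_) fun k m h => (c.inj k (σ x) h).1 (by rw [m x, f1 _ _ h])
  obtain ⟨γ, rfl⟩ := e.sur u m
  obtain ⟨k, k1, k2⟩ := c.fib (γ • σ x) (σ (f γ x)) (by rw [c.eqv, s1, s1])
  have b : (k * γ) • σ x = σ (f (k * γ) x) := by rw [mul_smul, k2, fm, f1 k _ k1]
  refine ⟨k * γ, fun y => ?_, by simp [k1]⟩
  by_cases h : a x₀ y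
  · exact st _ x y h b
  · obtain ⟨w, h1, h2⟩ := n.d2 _ g.x0 y y.2 h
    exact st _ ⟨w, m2 h1⟩ y (g.symm _ _ h2) (st _ x _ h1 b)

end H19.BX
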