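/-
Gaschütz' theorem, first cohomology and central extensions (S5590: K1 K2 K3 K6 K7).
-/
import Cfsg.Agent.H19.BX1

set_option autoImplicit false
set_option linter.unusedVariables false
set_option linter.unusedSectionVars false
set_option linter.unusedSimpArgs false

namespace H19.BX
open Cfsg H19 H15.BX Subgroup Function Module
open H1.RC (Rp)
open scoped commutatorElement Pointwise

universe u v
variable {F V : Type u} [Field F] [AddCommGroup V] [Module F V] {G : Type} [Group G] {X : Type v} [Group X] {Ω : Type}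
  {κ : X →* G} {S T M N : Subgroup G} {ρ : G → End F V} {d D : X → V} {α : G →* Equiv.Perm Ω} {O : Set Ω}
  {a : Ω → Ω → Prop} {x₀ : Ω}

theorem reps (l : S.relIndex T ≠ 0) : ∃ (Q : Type) (_ : Fintype Q) (r : Q → G) (π : G → Equiv.Perm Q),
    Fintype.card Q = S.relIndex T ∧ (∀ q, r q ∈ T) ∧ (∀ x ∈ T, ∀ q, (r (π x q))⁻¹ * x * r q ∈ S) ∧
      (∀ x ∈ T, ∀ y ∈ T, ∀ q, π (x * y) q = π x (π y q)) ∧ ∀ q, π 1 q = q := by
  classical
  have : (S.subgroupOf T).FiniteIndex := ⟨l⟩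
  let := Fintype.ofFinite (T ⧸ S.subgroupOf T)
  refine ⟨T ⧸ S.subgroupOf T, inferInstance, fun q => q.out.1, fun x => if h : x ∈ T then MulAction.toPerm (⟨x, h⟩ : T) else 1,
    Nat.card_eq_fintype_card.symm, fun q => q.out.2, fun x m q => ?_, fun x m y n q => ?_, fun q => ?_⟩
  · simp only [dif_pos m, MulAction.toPerm_apply]
    have : (((⟨x, m⟩ : T) • q).out : T ⧸ S.subgroupOf T) = ((⟨x, m⟩ : T) * q.out : T) := by
      rw [QuotientGroup.out_eq', ← smul_eq_mul, MulAction.Quotient.mk_smul_out]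
    simpa [mem_subgroupOf, mul_assoc] using QuotientGroup.eq.1 this
  · simp only [dif_pos m, dif_pos n, dif_pos (mul_mem m n), MulAction.toPerm_apply, ← mul_smul]; rfl
  · simp only [dif_pos (one_mem T), MulAction.toPerm_apply]; exact one_smul T q

theorem g1 (e : Ex κ T ρ d) (l : S ≤ T) (i : (S.relIndex T : F) ≠ 0) (h : Sp κ S ρ d) : Sp κ T ρ d := by
  obtain ⟨D, D1, D2⟩ := h
  obtain ⟨Q, _, r, π, c, r1, r2, p1, p2⟩ := reps (S := S) (T := T) fun z => i (by simp [z])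
  choose s s1 using fun q => e.sur _ (r1 q)
  have m : ∀ x, κ x ∈ T → ∀ q, κ ((s (π (κ x) q))⁻¹ * x * s q) ∈ S := fun x a q => by simpa [s1] using r2 _ a q
  refine ⟨fun x => (S.relIndex T : F)⁻¹ • ∑ q, ρ (r (π (κ x) q)) (D ((s (π (κ x) q))⁻¹ * x * s q)), fun x y a b => ?_,
    fun x a => ?_⟩
  · simp only [map_smul, map_sum, ← smul_add]
    rw [← Equiv.sum_comp (π (κ y)) fun q => ρ (r (π (κ x) q)) _, ← Finset.sum_add_distrib]
    refine congrArg _ (Finset.sum_congr rfl fun q _ => ?_)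
    have : (s (π (κ x) (π (κ y) q)))⁻¹ * (x * y) * s q =
      (s (π (κ x) (π (κ y) q)))⁻¹ * x * s (π (κ y) q) * ((s (π (κ y) q))⁻¹ * y * s q) := by group
    rw [map_mul, p1 _ a _ b, this, D1 _ _ (m x a _) (m y b _), map_add, rp_ap e.rp (r1 _) (l (m x a _)), rp_ap e.rp a (r1 _)]
    simp [s1, mul_assoc]
  · have : ∀ q, ρ (r q) (D ((s q)⁻¹ * x * s q)) = d x := fun q => by
      have := e.eqv (s q)⁻¹ x (by simpa [s1] using r1 q) a
      rw [inv_inv] at this
      rw [D2 _ (by simp [a]), this, rp_ap e.rp (r1 q) (by simpa [s1] using r1 q)]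
      simpa [s1] using e.fix a
    simp only [a, p2, this, Finset.sum_const, Finset.card_univ, c]
    rw [← Nat.cast_smul_eq_nsmul F, smul_smul, inv_mul_cancel₀ i, one_smul]

theorem cr_sub (h : Rp T ρ) {c : G → V} (a : ∀ x ∈ T, ∀ y ∈ T, c (x * y) = c x + ρ x (c y)) (v : V) :
    ∀ x ∈ T, ∀ y ∈ T, c (x * y) - (ρ (x * y) v - v) = c x - (ρ x v - v) + ρ x (c y - (ρ y v - v)) := fun x p y q => by
  rw [a x p y q, map_sub, map_sub, rp_ap h p q]; abel

theorem g2 (h : Rp T ρ) (l : S ≤ T) (i : (S.relIndex T : F) ≠ 0) (z : Z1 S ρ) : Z1 T ρ := fun c o a => by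
  obtain ⟨v, hv⟩ := z c o fun x p y q => a x (l p) y (l q)
  obtain ⟨Q, _, r, π, n, r1, r2, -⟩ := reps (S := S) (T := T) fun z => i (by simp [z])
  have b := cr_sub h a v
  refine ⟨v - (S.relIndex T : F)⁻¹ • ∑ q, (c (r q) - (ρ (r q) v - v)), fun x m => ?_⟩
  have : ∑ q, (c (r (π x q)) - (ρ (r (π x q)) v - v)) = ∑ q, (c x - (ρ x v - v) + ρ x (c (r q) - (ρ (r q) v - v))) :=
    Finset.sum_congr rfl fun q _ => by
      have := b _ (r1 (π x q)) _ (l (r2 x m q))
      rw [hv _ (r2 x m q), sub_self, map_zero, add_zero] at this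
      rw [← this, ← b x m _ (r1 q)]; simp [mul_assoc]
  rw [Equiv.sum_comp (π x) fun q => c (r q) - (ρ (r q) v - v), Finset.sum_add_distrib, ← map_sum, Finset.sum_const,
    Finset.card_univ, n, ← Nat.cast_smul_eq_nsmul F] at this
  generalize ∑ q, (c (r q) - (ρ (r q) v - v)) = w at this
  have := congrArg ((S.relIndex T : F)⁻¹ • ·) this
  simp only [smul_add, smul_smul, inv_mul_cancel₀ i, one_smul] at this
  rw [map_sub, map_smul, this]; abel

theorem g6 (h : Rp M ρ) (l : N ≤ M) (n : M ≤ N(N)) (i : (#N : F) ≠ 0) (f : ∀ v, (∀ n ∈ N, ρ n v = v) → ∀ m ∈ M, ρ m v = v)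
    (k : Hm V M N) : Z1 M ρ := fun c o a => by
  obtain ⟨v, hv⟩ := g2 (rp_mono h l) bot_le (by rwa [relIndex_bot_left]) z1_bot c o fun x p y q => a x (l p) y (l q)
  have b := cr_sub h a v
  refine ⟨v, fun x m => sub_eq_zero.1 (k (fun x => c x - (ρ x v - v)) (fun x p y q => ?_) (fun x p => by simp [hv x p]) x m)⟩
  rw [b x p y q, f (c y - (ρ y v - v)) (fun u r => ?_) x p]
  have s : y⁻¹ * u * y ∈ N := by simpa using (mem_normalizer_iff.1 (n (inv_mem q)) u).1 r
  have := b y q _ (l s)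
  rw [hv _ s, sub_self, map_zero, add_zero, show y * (y⁻¹ * u * y) = u * y by group, b u (l r) y q, hv u r] at this
  simpa using this

/-- the projection onto the fixed points -/
theorem proj (h : Rp T ρ) (l : N ≤ T) (n : T ≤ N(N)) (i : (#N : F) ≠ 0) : ∃ p : End F V,
    (∀ t ∈ T, ∀ v, ρ t (p v) = p (ρ t v)) ∧ (∀ t ∈ N, ∀ v, ρ t (p v) = p v) ∧ ∀ v, (∀ t ∈ N, ρ t v = v) → p v = v := by
  have : Finite N := Nat.finite_of_card_ne_zero fun z => i (by simp [z])
  let := Fintype.ofFinite N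
  refine ⟨(#N : F)⁻¹ • ∑ x : N, ρ x, fun t m v => ?_, fun t m v => ?_, fun v f => ?_⟩
  · simp only [LinearMap.smul_apply, LinearMap.sum_apply, map_smul, map_sum]
    refine congrArg _ (Fintype.sum_equiv (normalizerMonoidHom N ⟨t, n m⟩).toEquiv _ _ fun x => ?_)
    rw [rp_ap h m (l x.2), rp_ap h (l (Subtype.prop _)) m]
    congr 2; show _ = t * x * t⁻¹ * t; group
  · simp only [LinearMap.smul_apply, LinearMap.sum_apply, map_smul, map_sum]
    exact congrArg _ (Fintype.sum_equiv (Equiv.mulLeft (⟨t, m⟩ : N)) _ _ fun x => rp_ap h (l m) (l x.2) v)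
  · simp only [LinearMap.smul_apply, LinearMap.sum_apply, fun x : N => f x x.2, Finset.sum_const, Finset.card_univ]
    rw [← Nat.cast_smul_eq_nsmul F, smul_smul, ← Nat.card_eq_fintype_card, inv_mul_cancel₀ i, one_smul]

theorem Sp.add {d' : X → V} (h : Sp κ T ρ d) (k : Sp κ T ρ d') : Sp κ T ρ fun a => d a + d' a :=
  let ⟨D, D1, D2⟩ := h; let ⟨E, E1, E2⟩ := k
  ⟨fun x => D x + E x, fun x y p q => by simp only [D1 x y p q, E1 x y p q, map_add]; abel, fun x p => by simp only [D2 x p, E2 x p]⟩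

theorem g3a (e : Ex κ T ρ d) (l : N ≤ T) (n : T ≤ N(N)) (i : (#N : F) ≠ 0) {p : End F V}
    (p1 : ∀ t ∈ T, ∀ v, ρ t (p v) = p (ρ t v)) (p2 : ∀ t ∈ N, ∀ v, ρ t (p v) = p v) (p3 : ∀ v, (∀ t ∈ N, ρ t v = v) → p v = v)
    (z : ∀ a, κ a = 1 → p (d a) = 0) : Sp κ T ρ d := by
  have i' : ((⊥ : Subgroup G).relIndex N : F) ≠ 0 := by rwa [relIndex_bot_left]
  obtain ⟨D, D1, D2⟩ := g1 (e.mono l) bot_le i' e.bot
  have cj : ∀ x y, κ x ∈ T → κ y ∈ N → κ (x⁻¹ * y * x) ∈ N := fun x y a b => by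
    simpa using (mem_normalizer_iff.1 (n (inv_mem a)) _).1 b
  obtain ⟨E, E1, E2⟩ : Sp κ N ρ d := ⟨fun x => D x - p (D x), fun x y a b => by
    simp only [D1 x y a b, map_add, map_sub, p1 _ (l a)]; abel, fun x a => by simp only [D2 x a, z x a, sub_zero]⟩
  let W : X → V → Prop := fun x w => p w = 0 ∧ ∀ y, κ y ∈ N → ρ (κ x) (E (x⁻¹ * y * x)) - E y = ρ (κ y) w - w
  choose! s s1 using e.sur
  have un : ∀ x w w', W x w → W x w' → w = w' := fun x w w' a b => by
    rw [← sub_eq_zero, ← p3 (w - w') fun t m => ?_, map_sub, a.1, b.1, sub_zero]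
    have := (a.2 (s t) (by rwa [s1 t (l m)])).symm.trans (b.2 (s t) (by rwa [s1 t (l m)]))
    rw [s1 t (l m)] at this
    rw [map_sub]; exact sub_eq_sub_iff_sub_eq_sub.1 this
  have ex : ∀ x, κ x ∈ T → ∃ w, W x w := fun x m => by
    let c : X → V := fun y => ρ (κ x) (E (x⁻¹ * y * x)) - E y
    have c1 : ∀ y y', κ y ∈ N → κ y' ∈ N → c (y * y') = c y + ρ (κ y) (c y') := fun y y' a b => by
      simp only [c]
      rw [show x⁻¹ * (y * y') * x = x⁻¹ * y * x * (x⁻¹ * y' * x) by group, E1 _ _ (cj x y m a) (cj x y' m b), E1 _ _ a b, map_add,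
        map_sub, rp_ap e.rp m (l (cj x y m a)), rp_ap e.rp (l a) m]
      simp only [map_mul, map_inv, mul_assoc, mul_inv_cancel_left]; abel
    have c2 : ∀ y, κ y = 1 → c y = 0 := fun y a => by
      have := e.eqv x⁻¹ y (by simpa using m) a
      rw [inv_inv] at this
      simp only [c]
      rw [E2 _ (by simp [a]), this, E2 _ a, rp_ap e.rp m (by simpa using m)]
      simpa [sub_eq_zero] using e.fix a
    have c3 : ∀ y, κ y ∈ N → c (s (κ y)) = c y := fun y a => by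
      have := c1 y (y⁻¹ * s (κ y)) a (by simp [s1 _ (l a)])
      rwa [c2 (y⁻¹ * _) (by simp [s1 _ (l a)]), map_zero, add_zero, mul_inv_cancel_left] at this
    obtain ⟨v, hv⟩ := g2 (rp_mono e.rp l) bot_le i' z1_bot (fun g => c (s g)) (c2 _ (s1 1 (one_mem _))) fun u a u' b => by
      have := c3 (s u * s u') (by simpa [s1 _ (l a), s1 _ (l b)] using mul_mem a b)
      rw [map_mul, s1 _ (l a), s1 _ (l b)] at this
      simp only [this]; rw [c1 _ _ (by rwa [s1 _ (l a)]) (by rwa [s1 _ (l b)]), s1 _ (l a)]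
    refine ⟨v - p v, by rw [map_sub, p3 (p v) fun t m => p2 t m v, sub_self], fun y a => ?_⟩
    rw [map_sub, p2 _ a, sub_sub_sub_cancel_right, ← hv _ a]; exact (c3 y a).symm
  choose! w hw using ex
  refine ⟨w, fun x y a b => un (x * y) _ _ (hw _ (by simpa using mul_mem a b)) ⟨by
    rw [map_add, ← p1 _ a, (hw x a).1, (hw y b).1]; simp, fun u m => ?_⟩, fun x a => un x _ _ (hw x (a ▸ one_mem _)) ⟨z x a, fun u m => ?_⟩⟩
  · have h1 := congrArg (ρ (κ x)) ((hw y b).2 _ (cj x u a m))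
    have h2 := (hw x a).2 u m
    rw [map_sub, map_sub, rp_ap e.rp a b, rp_ap e.rp a (l (cj x u a m))] at h1
    rw [show (x * y)⁻¹ * u * (x * y) = y⁻¹ * (x⁻¹ * u * x) * y by group, map_mul, map_add, rp_ap e.rp (l m) a,
      eq_add_of_sub_eq h1, eq_add_of_sub_eq h2]
    simp only [map_mul, map_inv, mul_assoc, mul_inv_cancel_left]; abel
  · have o : ∀ u, κ u ∈ N → ρ 1 (E u) = E u := fun u m => by
      have := E1 1 u (by simp) m
      rw [one_mul, E2 1 (map_one _), e.one, zero_add, map_one] at this; exact this.symm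
    rw [a, o _ (cj x u (a ▸ one_mem _) m), mul_assoc, E1 _ _ (by simp [a]) (by simpa [a] using m), E2 _ (by simp [a]), d_inv e a,
      map_inv, a, inv_one, o _ (by simpa [a] using m), E1 _ _ m (by simp [a]), E2 _ a]; abel

theorem bs {p : ℕ} (hp : p.Prime) [Finite M] (h1 : p ∣ #M) (h2 : ¬ p ^ 2 ∣ #M) (l : N ≤ M) (hN : ¬ p ∣ #N) (h : M ≤ ⁅M, M⁆ ⊔ N) :
    ∃ x ∈ M, ∃ n ∈ M, ∃ k : ℕ, orderOf x = p ∧ n * x * n⁻¹ = x ^ k ∧ x ^ k ≠ x ∧ ¬ p ∣ (zpowers x).relIndex M := by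
  have := Fact.mk hp
  obtain ⟨P⟩ : Nonempty (Sylow p M) := inferInstance
  have c : Nat.card P = p := by
    have : (Nat.card M).factorization p = 1 := le_antisymm
      (not_lt.1 fun k => h2 ((hp.pow_dvd_iff_le_factorization Nat.card_pos.ne').2 k)) (hp.factorization_pos_of_dvd Nat.card_pos.ne' h1)
    rw [P.card_eq_multiplicity, this, pow_one]
  obtain ⟨⟨x, m⟩, hx⟩ := (isCyclic_of_prime_card c).exists_generator
  have z : zpowers x = P := le_antisymm (zpowers_le.2 m) fun y k => by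
    obtain ⟨i, e⟩ := hx ⟨y, k⟩; exact ⟨i, congrArg Subtype.val e⟩
  have o : orderOf x = p := by rw [← Nat.card_zpowers, z, c]
  have nc : ¬ normalizer (P : Set M) ≤ centralizer (P : Set M) := fun hP => by
    have : IsMulCommutative P := ⟨⟨fun a b => Subtype.ext (hP (le_normalizer b.2) a a.2)⟩⟩
    let f := MonoidHom.transferSylow P hP
    have : M ≤ f.ker.map M.subtype := h.trans (sup_le (commutator_le.2 fun a p b q => ⟨⁅(⟨a, p⟩ : M), (⟨b, q⟩ : M)⁆, by
      show f _ = 1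
      rw [map_commutatorElement, commutatorElement_eq_one_iff_mul_comm, this.1.1], rfl⟩) fun y k => ⟨⟨y, l k⟩, ?_, rfl⟩)
    · refine MonoidHom.not_dvd_card_ker_transferSylow P hP ?_
      rw [show f.ker = ⊤ from eq_top_iff.2 fun y _ => by obtain ⟨u, a, e⟩ := this y.2; exact Subtype.ext e ▸ a]
      simpa using h1
    show f _ = 1
    refine orderOf_eq_one_iff.1 (Nat.eq_one_of_dvd_coprimes ((Nat.Prime.coprime_iff_not_dvd hp).2 hN) ((_root_.orderOf_dvd_natCard _).trans c.dvd) ?_)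
    exact (orderOf_map_dvd f _).trans (by simpa using orderOf_dvd_natCard (⟨y, k⟩ : N))
  obtain ⟨n, n1, n2⟩ := SetLike.not_le_iff_exists.1 nc
  have n3 : n * x * n⁻¹ ∈ zpowers x := z ▸ (mem_normalizer_iff.1 n1 x).1 m
  obtain ⟨k, hk⟩ := (Submonoid.mem_powers_iff _ _).1 (mem_powers_iff_mem_zpowers.2 n3)
  refine ⟨x, x.2, n, n.2, k, by simpa using o, (congrArg Subtype.val hk).symm, fun e => n2 fun y a => ?_, ?_⟩
  · obtain ⟨i, rfl⟩ : y ∈ zpowers x := z ▸ a
    have : n * x * n⁻¹ = x := hk.symm.trans (Subtype.ext e)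
    exact (Commute.zpow_left (mul_inv_eq_iff_eq_mul.1 this).symm i).eq
  · have : (zpowers x.1).subgroupOf M = P := by
      rw [← z, ← M.subtype_apply, ← MonoidHom.map_zpowers, subgroupOf, comap_map_eq_self_of_injective M.subtype_injective]
    rw [relIndex, this]; exact P.not_dvd_index

theorem g7 (e : Ex κ M ρ d) (l : N ≤ M) (i : (#N : F) ≠ 0) (h : M ≤ ⁅M, M⁆ ⊔ N) [Finite M] (c : ¬ ringChar F ^ 2 ∣ #M)
    (f : ∀ a, κ a = 1 → ∀ m ∈ M, ρ m (d a) = d a) : Sp κ M ρ d := by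
  by_cases j : (#M : F) = 0
  swap; · exact g1 e bot_le (by rwa [relIndex_bot_left]) e.bot
  have sp := ringChar.spec F
  generalize ringChar F = p at sp c
  have hp : p.Prime := by
    have : CharP F p := ⟨sp⟩
    refine (CharP.char_is_prime_or_zero F p).resolve_right fun z => ?_
    exact Nat.card_pos.ne' (zero_dvd_iff.1 (z ▸ (sp _).1 j))
  obtain ⟨x, m, n, r, k, o, e1, e2, e3⟩ := bs hp ((sp _).1 j) c l (fun z => i ((sp _).2 z)) h
  obtain ⟨x, rfl⟩ := e.sur x m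
  obtain ⟨n, rfl⟩ := e.sur n r
  have pw : ∀ a, κ a = 1 → ∀ i : ℕ, d (a ^ i) = (i : F) • d a := fun a b i => by
    induction i with
    | zero => simp [e.one]
    | succ i h => rw [pow_succ, e.add _ _ (by simp [b]) b, h]; simp [add_smul]
  have pc : ∀ y a, κ y ∈ M → κ a = 1 → ∀ i : ℕ, d ((y * a) ^ i * (y ^ i)⁻¹) = (i : F) • d a := fun y a b b' i => by
    induction i with
    | zero => simp [e.one]
    | succ i h =>
      rw [show (y * a) ^ (i + 1) * (y ^ (i + 1))⁻¹ = y * (a * ((y * a) ^ i * (y ^ i)⁻¹)) * y⁻¹ by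
        rw [pow_succ', pow_succ' y]; group, e.eqv _ _ b (by simp [b']), f _ (by simp [b']) _ b, e.add _ _ b' (by simp [b']), h]
      simp [add_smul, add_comm]
  have x1 : κ (x ^ p) = 1 := by rw [map_pow, ← o, pow_orderOf_eq_one]
  have x2 : d (x ^ p) = 0 := by
    have a1 := pc (x ^ k) ((x ^ k)⁻¹ * (n * x * n⁻¹)) (by simpa using pow_mem m k) (by simp [e1]) p
    have a2 := e.add ((n * x * n⁻¹) ^ p * ((x ^ k) ^ p)⁻¹) ((x ^ p) ^ k)
      (by rw [map_mul, map_inv, map_pow, map_pow, map_pow, map_mul, map_mul, map_inv, e1, mul_inv_cancel]) (by simp [x1])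
    rw [mul_inv_cancel_left, (sp p).2 dvd_rfl, zero_smul] at a1
    rw [a1, pw _ x1, ← pow_mul, ← pow_mul, mul_comm k, inv_mul_cancel_right, conj_pow, e.eqv _ _ r x1, f _ x1 _ r, zero_add] at a2
    have : (k : F) - 1 ≠ 0 := fun z => e2 (by
      have : CharP F p := ⟨sp⟩
      conv_rhs => rw [← pow_one (κ x)]
      rw [pow_eq_pow_iff_modEq, o, ← CharP.natCast_eq_natCast F p, sub_eq_zero.1 z, Nat.cast_one])
    exact (smul_eq_zero.1 (by rw [sub_smul, ← a2, one_smul, sub_self])).resolve_left this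
  refine g1 e (zpowers_le.2 m) (fun z => e3 ((sp _).1 z)) (sp_of (e.mono (zpowers_le.2 m)) (zpowers x) ?_ ?_)
  · rintro _ ⟨i, rfl⟩; exact ⟨x ^ i, ⟨i, rfl⟩, by simp⟩
  · rintro _ ⟨i, rfl⟩ b
    obtain ⟨j, rfl⟩ : (p : ℤ) ∣ i := by rw [← o, orderOf_dvd_iff_zpow_eq_one]; simpa using b
    show d (x ^ (p * j : ℤ)) = 0
    rw [zpow_mul, zpow_natCast]
    obtain ⟨j, rfl | rfl⟩ := j.eq_nat_or_neg
    · rw [zpow_natCast, pw _ x1, x2, smul_zero]
    · rw [zpow_neg, zpow_natCast, d_inv e (by simp [x1]), pw _ x1, x2, smul_zero, neg_zero]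

variable [NeZero (2 : F)] [FiniteDimensional F V]

theorem k1 : K1.{u, v} F V := fun _ _ _ _ _ _ _ _ _ => g1
theorem k2 : K2 F V := fun _ _ _ _ _ => g2
theorem k6 : K6 F V := fun _ _ _ _ _ => g6
theorem k7 : K7.{u, v} F V := fun _ _ _ _ _ _ _ _ _ e l i h _ => g7 e l i h
theorem k3 : K3.{u, v} F V := fun G _ X _ κ N T ρ d e l n i h => by
  obtain ⟨p, p1, p2, p3⟩ := proj e.rp l n i
  have := Sp.add (h (fun a => p (d a)) ⟨e.rp, e.sur, fun a b r s => by rw [e.add a b r s, map_add], fun x a r s => by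
    rw [e.eqv x a r s, p1 _ r]⟩ (fun a _ t m => p2 t m _) fun a _ => p3 _)
    (g3a (d := fun a => d a - p (d a)) ⟨e.rp, e.sur, fun a b r s => by rw [e.add a b r s, map_add]; abel, fun x a r s => by
      rw [e.eqv x a r s, map_sub, p1 _ r]⟩ l n i p1 p2 p3 fun a _ => by rw [map_sub, p3 (p _) fun t m => p2 t m _, sub_self])
  simpa using this

end H19.BX
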