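/-
S5586: the piece LD.
-/
import Cfsg.Agent.H19.AM1

set_option autoImplicit false
set_option linter.unusedVariables false
set_option linter.unusedSectionVars false
set_option linter.unusedSimpArgs false

namespace H19.AM
open Cfsg H15 H19 H0 H0.Mo H0.Y H7.AM Subgroup Function
open scoped commutatorElement

universe u v
theorem sl6 : ∀ a b c d e f g h i : ZMod 2, !![a, b, c; d, e, f; g, h, i] ^ 6 = 1 →
    !![a, b, c; d, e, f; g, h, i] ^ 2 = 1 ∨ !![a, b, c; d, e, f; g, h, i] ^ 3 = 1 := by decide +kernel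

theorem sl23 {a b : SL3} (c : Commute a b) (j : ℕ) (h : a ^ 2 ^ j = 1) (h3 : b ^ 3 = 1) : a = 1 ∨ b = 1 := by
  induction j generalizing a with
  | zero => exact .inl (by simpa using h)
  | succ j ih =>
    refine (ih (c.pow_left 2) (by rw [← pow_mul, ← pow_succ', h])).elim (fun a2 => ?_) .inr
    have := sl6 _ _ _ _ _ _ _ _ _ ((congrArg (· ^ 6) (Matrix.eta_fin_three (a * b).1)).symm.trans (congrArg Subtype.val (show (a * b) ^ 6 = 1 by
      rw [c.mul_pow, show 6 = 2 * 3 from rfl, pow_mul, a2, pow_mul', h3]; simp)))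
    rw [← Matrix.eta_fin_three] at this
    rcases this with e | e
    · have : (a * b) ^ 2 = 1 := Subtype.ext e
      rw [c.mul_pow, a2, one_mul] at this
      exact .inr (by rwa [pow_succ, this, one_mul] at h3)
    · have : (a * b) ^ 3 = 1 := Subtype.ext e
      rw [c.mul_pow, h3, mul_one, pow_succ, a2, one_mul] at this
      exact .inl this

theorem sl3_simple : IsSimpleGroup SL3 :=
  have := H11.psl_simple (ι := Fin 3) (F := ZMod 2) (by simp)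
  ((QuotientGroup.quotientMulEquivOfEq (show center SL3 = ⊥ by rw [← card_eq_one, H11.card_center_sl]; simp)).trans
    QuotientGroup.quotientBot).symm.isSimpleGroup

section
variable {G : Type u} [Group G] {A H : Subgroup G}
theorem fin_of [Finite A] (h : A.relIndex H ≠ 0) : Finite H :=
  have : Finite (A.subgroupOf H) := .of_injective (fun x => (⟨x.1.1, x.2⟩ : A)) fun _ _ e => Subtype.ext (Subtype.ext (Subtype.mk.inj e))
  Nat.finite_of_card_ne_zero (by rw [← (A.subgroupOf H).card_mul_index]; exact mul_ne_zero Nat.card_pos.ne' h)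
theorem nm_map (K : Subgroup H) [n : K.Normal] : H ≤ N(K.map H.subtype) := le_normalizer_iff.2 (by
  rintro n hn _ ⟨x, hx, rfl⟩; exact ⟨_, Normal.conj_mem ‹_› x hx ⟨n, hn⟩, rfl⟩)
theorem eq_of_idx {p : ℕ} (hp : p.Prime) (h : A.index = p) (l : A ≤ H) (n : H ≠ ⊤) : H = A := le_antisymm (relIndex_eq_one.1 (by
  have := relIndex_mul_index l
  rw [h, ((Nat.dvd_prime hp).1 (h ▸ index_dvd_of_le l)).resolve_left (mt index_eq_one.1 n)] at this
  simpa [hp.ne_zero] using this)) l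
end

attribute [-simp] MulMemClass.mk_mul_mk in
theorem ld : LD.{u} := fun G _ Gc Gn Gl K R ρ lam fin N L h3 hn hc h21 => by
  have : Finite Gn := fin_of (A := Gc) (by omega)
  have : Finite Gl := fin_of (A := Gc) (by omega)
  have := Fact.mk Nat.prime_three
  have tn : ∀ {t : Gl}, t ∈ lam.ker → t.1 ∈ Gn := fun h => L.i7 _ hn h
  have tc : ∀ {t : Gl}, t ∈ lam.ker → t.1 ∈ Gc := fun h => L.i7 _ hc h
  have cd : ∀ (P : Subgroup Gl) k, lam.ker ≤ P → P.index * k = 168 → #(P.map lam) = k := fun P k l e => by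
    have := (P.map lam).card_mul_index
    rw [index_map_eq _ L.surj l, H11.card_sl3_two, ← e, mul_comm] at this
    exact Nat.eq_of_mul_eq_mul_left (Nat.pos_of_ne_zero index_ne_zero_of_finite) this
  have c8 := cd ((Gn ⊓ Gc).subgroupOf Gl) 8 (fun x hx => ⟨tn hx, tc hx⟩) (by rw [← relIndex, h21])
  have o3 : ∀ P : Subgroup Gl, P.index = 7 → ∃ d ∈ P, d ^ 3 = 1 ∧ lam d ^ 3 = 1 ∧ lam d ≠ 1 ∧ ∀ t ∈ lam.ker, ⁅d, t⁆ ∈ pCore 2 Gl := fun P hP => by
    obtain ⟨y, hy, o⟩ := exists_orderOf_eq_prime (H := P.map lam) Nat.prime_three (by rw [cd P 24 (L.i7 P hP) (by rw [hP])]; norm_num)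
    obtain ⟨d, d3, rfl, c⟩ := L.lift y (orderOf_dvd_iff_pow_eq_one.1 o.dvd)
    exact ⟨d, (comap_map_eq_self (L.i7 P hP)).le hy, d3, by rw [← map_pow, d3, map_one], fun e => by simp [e] at o, c⟩
  obtain ⟨d, dn, d3, l3, l1, dc⟩ := o3 _ hn
  replace dn : d.1 ∈ Gn := dn
  replace d3 : d.1 ^ 3 = 1 := congrArg Subtype.val d3
  have tk : ∀ t ∈ lam.ker, t.1 ∈ K := fun t ht => N.core _ (tn ht) fun n hn' => by
    have i := relIndex_inf_mul_relIndex Gc Gn Gl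
    rw [hn, inf_comm Gc, h21] at i
    have : Finite (Gn ⧸ Gc.subgroupOf Gn) := inferInstance
    obtain ⟨p, hp⟩ := ((Nat.bijective_iff_injective_and_card _).2 ⟨(quotientSubgroupOfEmbeddingOfLE Gc (inf_le_left : Gn ⊓ Gl ≤ Gn)).injective,
      by rw [← index, ← index, ← relIndex, ← relIndex]; omega⟩).2 (QuotientGroup.mk ⟨n, hn'⟩⁻¹)
    obtain ⟨p, rfl⟩ := QuotientGroup.mk_surjective p
    have a : (p.1⁻¹ * n⁻¹ : G) ∈ Gc := (QuotientGroup.eq (s := Gc.subgroupOf Gn)).1 hp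
    have b : (p.1⁻¹ * t * p.1 : G) ∈ Gc := tc (lam.normal_ker.conj_mem' t ht ⟨p.1, p.2.2⟩)
    simpa [mul_assoc] using mul_mem (mul_mem (inv_mem a) b) a
  have r1 : ∀ t (ht : t ∈ lam.ker), (ρ ⟨t.1, tn ht⟩).1 = 1 := fun t ht => (N.mK _).1 (tk t ht)
  have m3 : (ρ ⟨d.1, dn⟩).2 ^ 3 = 1 := by
    rw [← Prod.pow_snd, ← map_pow, show (⟨d.1, dn⟩ : Gn) ^ 3 = 1 from Subtype.ext d3, map_one]; rfl
  have pR : IsPGroup 2 (R.subgroupOf Gl) := N.pR.comap_subtype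
  have d2 : (ρ ⟨d.1, dn⟩).2 = 1 := by
    let θ : lam.ker →* M24 := ((MonoidHom.snd _ _).comp ρ).comp ((Gl.subtype.comp lam.ker.subtype).codRestrict Gn fun t => tn t.2)
    have a : 27 ∣ #θ.range := by
      have pk : IsPGroup 2 θ.ker := (pR.comap_subtype (K := lam.ker)).to_le fun t ht => (N.ker _).1 (Prod.ext (r1 _ t.2) ht)
      obtain ⟨k, hk⟩ := IsPGroup.iff_card.1 pk
      have := L.c27
      rw [← θ.ker.card_mul_index, index_ker, hk] at this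
      exact ((by decide : Nat.Coprime 27 2).pow_right k).dvd_of_dvd_mul_left this
    have n : zpowers (ρ ⟨d.1, dn⟩).2 ≤ N(θ.range) := zpowers_le.2 (mem_normalizer_fintype (by
      rintro _ ⟨t, rfl⟩
      exact ⟨⟨_, lam.normal_ker.conj_mem t t.2 d⟩, by
        change (ρ (⟨d.1, dn⟩ * ⟨t.1.1, tn t.2⟩ * ⟨d.1, dn⟩⁻¹)).2 = _; rw [map_mul, map_mul, map_inv]; rfl⟩))
    by_contra e
    have o : #(zpowers (ρ ⟨d.1, dn⟩).2) = 3 := (Nat.card_zpowers _).trans (orderOf_eq_prime m3 e)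
    obtain ⟨τ, hτ⟩ : (ρ ⟨d.1, dn⟩).2 ∈ θ.range := by_contra fun k => by
      have := card_subgroup_dvd_card (θ.range ⊔ zpowers (ρ ⟨d.1, dn⟩).2)
      rw [card_sup_of_disjoint n (by rw [inf_comm]; exact inf_eq_bot_of_prime (o.symm ▸ Nat.prime_three) (mt zpowers_le.1 k)), o, card_M24] at this
      exact absurd ((mul_dvd_mul_right a 3).trans this) (by norm_num)
    obtain ⟨j, hj⟩ := H1.pCore_isPGroup (p := 2) ⟨τ.1, L.cen (R.subgroupOf Gl ⊓ lam.ker) inf_le_right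
      (le_normalizer_iff.2 fun t ht x hx => mem_inf.2 ⟨mem_subgroupOf.2 <| (N.ker (⟨t.1, tn ht⟩ * ⟨x.1, tn hx.2⟩ * ⟨t.1, tn ht⟩⁻¹)).1 (by
        rw [map_mul, map_mul, (N.ker ⟨x.1, _⟩).2 hx.1]; simp), lam.normal_ker.conj_mem x hx.2 t⟩) (pR.to_le inf_le_left) _ τ.2 fun t ht => by
      have : τ.1 * t * τ.1⁻¹ * (d * t * d⁻¹)⁻¹ ∈ R.subgroupOf Gl ⊓ lam.ker := mem_inf.2 ⟨mem_subgroupOf.2 <| (N.ker (⟨τ.1.1, tn τ.2⟩ * ⟨t.1, tn ht⟩ * ⟨τ.1.1, tn τ.2⟩⁻¹ *
        (⟨d.1, dn⟩ * ⟨t.1, tn ht⟩ * ⟨d.1, dn⟩⁻¹)⁻¹)).1 (Prod.ext (by simp [r1 _ ht, r1 _ τ.2]) (by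
          simp [show (ρ ⟨τ.1.1, tn τ.2⟩).2 = _ from hτ, mul_assoc])),
        mul_mem (lam.normal_ker.conj_mem t ht _) (inv_mem (lam.normal_ker.conj_mem t ht _))⟩
      simpa [commutatorElement_def, mul_assoc] using mul_mem_sup this (dc t ht)⟩
    have : (ρ ⟨d.1, dn⟩).2 ^ 2 ^ j = 1 := by rw [← hτ, ← map_pow, show τ ^ 2 ^ j = 1 from Subtype.ext (by simpa using Subtype.ext_iff.1 hj), map_one]
    exact e (mem_bot.1 (mem_of_cube j this (m3 ▸ one_mem _)))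
  have p8 : ∀ x : Gl, x.1 ∈ K → lam x ^ 2 ^ 3 = 1 := fun x hx => congrArg Subtype.val
    (c8 ▸ pow_card_eq_one' (x := (⟨lam x, x, (N.KB hx).symm, rfl⟩ : ((Gn ⊓ Gc).subgroupOf Gl).map lam)))
  have st : ∀ x : Gl, x.1 ∈ K → lam x ≠ 1 → (x⁻¹ * (d * x * d⁻¹)).1 ∈ R ∧ lam (x⁻¹ * (d * x * d⁻¹)) ≠ 1 := fun x hx x1 =>
    ⟨(N.ker (⟨x.1, (N.KB hx).2⟩⁻¹ * (⟨d.1, dn⟩ * ⟨x.1, (N.KB hx).2⟩ * ⟨d.1, dn⟩⁻¹))).1 (Prod.ext (by simp [(N.mK ⟨x.1, _⟩).1 hx]) (by simp [d2])),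
      fun e => (sl23 (show Commute (lam x) (lam d) by
        rw [map_mul, map_inv, inv_mul_eq_one, map_mul, map_mul, map_inv, eq_mul_inv_iff_mul_eq] at e; exact e) 3 (p8 x hx) l3).elim x1 l1⟩
  refine ⟨⟨⟨d.1, dn⟩, d.2, Subtype.ext d3, fun e => l1 ?_, d2, fun z zz zc h => ?_⟩, lam.ker.map Gl.subtype,
    by rintro _ ⟨t, ht, rfl⟩; exact ⟨⟨tc ht, tn ht⟩, t.2⟩, nm_map _, ?_, fun T' l1 l2 n => ?_⟩
  · exact (sl23 (.refl _) 3 (p8 d ((N.mK _).2 e)) l3).elim id id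
  · obtain ⟨v, hv, v1⟩ : ∃ v : Gl, v.1 ∈ K ∧ lam v ≠ 1 := by
      by_contra! k
      have a := index_dvd_of_le (show K.subgroupOf Gl ≤ lam.ker from k)
      have b := relIndex_inf_mul_relIndex K Gn Gl
      have c := relIndex_le_of_le_right (H := K) (inf_le_left : Gn ⊓ Gl ≤ Gn) index_ne_zero_of_finite
      have e : K.relIndex Gn ≤ 6 := by
        rw [relIndex, show K.subgroupOf Gn = ((MonoidHom.fst _ _).comp ρ).ker from Subgroup.ext N.mK, index_ker]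
        exact (card_le_card_group _).trans_eq (by simp [Fintype.card_perm, Nat.factorial])
      have f : K.relIndex Gl ≠ 0 := index_ne_zero_of_finite
      rw [index_ker, MonoidHom.range_eq_top.2 L.surj, card_top, H11.card_sl3_two, ← relIndex] at a
      rw [inf_eq_left.2 (N.KB.trans inf_le_right), hn] at b
      omega
    obtain ⟨a1, a2⟩ := st v hv v1
    obtain ⟨-, b⟩ := st _ ((N.mK ⟨_, N.RN a1⟩).2 (congrArg Prod.fst ((N.ker _).2 a1))) a2
    obtain ⟨z, rfl, z1⟩ : ∃ y : Gl, y.1 = z ∧ lam y ≠ 1 := by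
      have := h _ (mem_XX a1)
      generalize v⁻¹ * (d * v * d⁻¹) = w at this b
      replace : (w⁻¹ * (d * w * d⁻¹)).1 = 1 ∨ (w⁻¹ * (d * w * d⁻¹)).1 = z ∨ (w⁻¹ * (d * w * d⁻¹)).1 = d * z * d⁻¹ ∨
        (w⁻¹ * (d * w * d⁻¹)).1 = d * (d * z * d⁻¹) * d⁻¹ := this
      generalize w⁻¹ * (d * w * d⁻¹) = x at this b
      rcases this with e | e | e | e
      exacts [(b (by rw [show x = 1 from Subtype.ext e, map_one])).elim, ⟨x, e, b⟩, ⟨d⁻¹ * x * d, by simp [e, mul_assoc], by simpa [mul_assoc, inv_mul_eq_iff_eq_mul] using b⟩,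
        ⟨d⁻¹ * (d⁻¹ * x * d) * d, by simp [e, mul_assoc], by simpa [mul_assoc, inv_mul_eq_iff_eq_mul] using b⟩]
    obtain ⟨c, hc', -, c3, c1, -⟩ := o3 _ hc
    exact (sl23 ((show Commute z c from Subtype.ext (zc c ⟨hc', c.2⟩).symm).map lam) 1 (by
      rw [← map_pow, show z ^ 2 ^ 1 = 1 from Subtype.ext ((sq _).trans zz), map_one]) c3).elim z1 c1
  · rw [relIndex, ← comap_subtype, comap_map_eq_self_of_injective Gl.subtype_injective, index_ker, MonoidHom.range_eq_top.2 L.surj, card_top,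
      H11.card_sl3_two]
  · have := sl3_simple
    have l : lam.ker ≤ T'.subgroupOf Gl := map_le_iff_le_comap.1 l1
    refine (((normal_subgroupOf_iff_le_normalizer l2).2 n).map lam L.surj).eq_bot_or_eq_top.imp (fun e => ?_) fun e => ?_
    · rw [← le_antisymm l ((Subgroup.map_eq_bot_iff _).1 e) |>.symm, map_subgroupOf_eq_of_le l2]
    · exact le_antisymm l2 (subgroupOf_eq_top.1 (by rw [← comap_map_eq_self l, e, comap_top]))
end H19.AM
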