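/-
S5586: the piece LO.
-/
import Cfsg.Agent.H19.AM2

set_option autoImplicit false
set_option linter.unusedVariables false
set_option linter.unusedSectionVars false
set_option linter.unusedSimpArgs false

namespace H19.AM
open Cfsg H15 H19 H0 H0.Mo H0.Y H7.AM Subgroup Function
open scoped commutatorElement

universe u v

/-- the four-group as a subgroup -/
def Vs {G : Type u} [Group G] {z w : G} (zz : z * z = 1) (ww : w * w = 1) (zw : z * w = w * z) : Subgroup G where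
  carrier := {a | V4 z w a}
  one_mem' := .inl rfl
  mul_mem' := by
    have a : ∀ x, z * (w * x) = w * (z * x) := fun x => by rw [← mul_assoc, zw, mul_assoc]
    have b : ∀ x, w * (w * x) = x := fun x => by rw [← mul_assoc, ww, one_mul]
    rintro _ _ (h | h | h | h) (k | k | k | k) <;> rw [h, k] <;> simp [V4, mul_assoc, zz, ww, zw, a, b]
  inv_mem' := by
    rintro _ (h | h | h | h) <;> rw [h] <;> simp [V4, inv_eq_of_mul_eq_one_right zz, inv_eq_of_mul_eq_one_right ww, zw]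

theorem lo : H7.AM.LO.{u} := fun G _ Gc Gn Gl Q T z w fin E cz nQ wQ ww ⟨d, dl, hd⟩ hc hn w1 wz ts in7 ic7 i21 => by
  classical
  have : Finite Gl := fin_of (A := Gc) (by omega)
  have zw : w * z = z * w := E.cent w wQ
  have zz : ∀ a, a * z * z = a := fun a => by rw [mul_assoc, E.zz, mul_one]
  have z1 := E.z1
  have dz : d * z * d⁻¹ ≠ z := by have := zz w; have := E.zz; grind
  have p1 : ∀ l ∈ Gl, l * z * l⁻¹ = z → l ∈ Gc := fun l hl e =>
    (eq_of_idx (H := C[z].subgroupOf Gl) (by norm_num) ic7 (comap_mono cz) fun k => dz (mul_inv_eq_iff_eq_mul.2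
      (mem_cent1.1 (k.ge (mem_top ⟨d, dl⟩))))).le (x := ⟨l, hl⟩) (mem_cent1.2 (mul_inv_eq_iff_eq_mul.1 e))
  obtain ⟨c₁, c₂, a1, a2, b1, b2, n1, n2, n3⟩ : ∃ c₁ c₂, c₁ ∈ Gc ∧ c₂ ∈ Gc ∧ c₁ ∈ Gl ∧ c₂ ∈ Gl ∧ c₁ ∉ Gn ∧ c₂ ∉ Gn ∧ c₁⁻¹ * c₂ ∉ Gn := by
    have i := relIndex_inf_mul_relIndex Gn Gc Gl
    rw [ic7, i21] at i
    have : Finite (Gc ⊓ Gl : Subgroup G) := .of_injective _ (inclusion_injective inf_le_left)
    have := Fintype.ofFinite ((Gc ⊓ Gl : Subgroup G) ⧸ Gn.subgroupOf (Gc ⊓ Gl))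
    obtain ⟨a, b, c, ab, ac, bc⟩ := (Fintype.two_lt_card_iff (α := (Gc ⊓ Gl : Subgroup G) ⧸ Gn.subgroupOf (Gc ⊓ Gl))).1 (by
      rw [← Nat.card_eq_fintype_card, ← index, ← relIndex]; omega)
    obtain ⟨a, rfl⟩ := QuotientGroup.mk_surjective a
    obtain ⟨b, rfl⟩ := QuotientGroup.mk_surjective b
    obtain ⟨c, rfl⟩ := QuotientGroup.mk_surjective c
    exact ⟨_, _, (a⁻¹ * b).2.1, (a⁻¹ * c).2.1, (a⁻¹ * b).2.2, (a⁻¹ * c).2.2, fun k => ab (QuotientGroup.eq.2 k), fun k => ac (QuotientGroup.eq.2 k),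
      fun k => bc (QuotientGroup.eq.2 (by simpa [mem_subgroupOf, mul_assoc] using k))⟩
  have cz' : ∀ c ∈ Gc, c * z * c⁻¹ = z := fun c h => mul_inv_eq_iff_eq_mul.2 (mem_cent1.1 (cz h))
  obtain ⟨e, he⟩ : ∃ e, e = c₁ * w * c₁⁻¹ := ⟨_, rfl⟩
  obtain ⟨f, hf⟩ : ∃ f, f = c₂ * w * c₂⁻¹ := ⟨_, rfl⟩
  have ve : ¬ V4 z w e := he ▸ mt (hc _ a1).2 n1
  have vf : ¬ V4 z w f := hf ▸ mt (hc _ a2).2 n2
  have vef : ¬ V4 z e f := fun k => n3 ((hc _ (mul_mem (inv_mem a1) a2)).2 (by
    rw [show c₁⁻¹ * c₂ * w * (c₁⁻¹ * c₂)⁻¹ = c₁⁻¹ * f * c₁ by simp [hf, mul_assoc]]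
    have := cz' _ (inv_mem a1)
    rw [inv_inv] at this
    rcases k with k | k | k | k <;> rw [k]
    exacts [.inl (by simp), .inr (.inl this), .inr (.inr (.inl (by simp [he, mul_assoc]))),
      .inr (.inr (.inr (by rw [he]; conv_rhs => rw [← this]
                           simp [mul_assoc])))]))
  let Ω : G → Prop := fun a => ∃ l ∈ Gl, l * z * l⁻¹ = a
  have cj : ∀ l ∈ Gl, ∀ a, Ω a → Ω (l * a * l⁻¹) := by
    rintro l hl _ ⟨k, hk, rfl⟩; exact ⟨_, mul_mem hl hk, by simp [mul_assoc]⟩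
  have oz : Ω z := ⟨1, one_mem _, by simp⟩
  have ow : Ω w ∧ Ω (w * z) := by
    have := cj d dl _ (cj d dl _ oz)
    rcases hd with ⟨h1, h2⟩ | ⟨h1, h2⟩
    · exact ⟨⟨d, dl, h1⟩, by rwa [h1, h2] at this⟩
    · exact ⟨by rwa [h1, ← conj_mul, h1, h2, ← mul_assoc, ← zw, zz] at this, d, dl, h1⟩
  have oc : ∀ c ∈ Gc, c ∈ Gl → Ω (c * w * c⁻¹) ∧ Ω (c * w * c⁻¹ * z) := fun c h h' =>
    ⟨cj c h' _ ow.1, by have := cj c h' _ ow.2; rwa [← conj_mul, cz' c h] at this⟩
  let O : Finset G := {z, w, w * z, e, e * z, f, f * z}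
  have cO : O.card = 7 := by
    have := zz w; have := zz e; have := zz f; have := E.zz; have := one_mul z
    have := mt (mul_eq_left (a := w)).1 z1; have := mt (mul_eq_left (a := e)).1 z1; have := mt (mul_eq_left (a := f)).1 z1
    simp only [V4] at ve vf vef
    have : ∀ (a : G) (s : Finset G) n, s.card = n → a ∉ s → (insert a s).card = n + 1 := fun a s n h k => h ▸ Finset.card_insert_of_notMem k
    refine this _ _ _ (this _ _ _ (this _ _ _ (this _ _ _ (this _ _ _ (this _ _ _ (Finset.card_singleton _) ?_) ?_) ?_) ?_) ?_) ?_ <;>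
      simp only [Finset.mem_insert, Finset.mem_singleton] <;> grind
  have hO : ∀ a, a ∈ O ↔ Ω a := by
    have := Fintype.ofFinite (Gl ⧸ Gc.subgroupOf Gl)
    have m : ∀ a, a ∈ Finset.univ.image (fun q : Gl ⧸ Gc.subgroupOf Gl => q.out.1 * z * q.out.1⁻¹) ↔ Ω a := fun a => by
      simp only [Finset.mem_image, Finset.mem_univ, true_and]
      refine ⟨fun ⟨q, h⟩ => ⟨_, q.out.2, h⟩, fun ⟨l, hl, h⟩ => ⟨(⟨l, hl⟩ : Gl), ?_⟩⟩
      obtain ⟨c, k⟩ := QuotientGroup.mk_out_eq_mul (Gc.subgroupOf Gl) ⟨l, hl⟩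
      rw [k, ← h]; conv_rhs => rw [← cz' _ c.2]
      simp [mul_assoc]
    intro a
    rw [← m, ← Finset.eq_of_subset_of_card_le (s := O) (fun a ha => (m a).2 ?_) (Finset.card_image_le.trans (by
      rw [Finset.card_univ, ← Nat.card_eq_fintype_card, ← index, ← relIndex, ic7, cO]))]
    simp only [O, Finset.mem_insert, Finset.mem_singleton] at ha
    rcases ha with k | k | k | k | k | k | k <;> rw [k]
    exacts [oz, ow.1, ow.2, he ▸ (oc _ a1 b1).1, he ▸ (oc _ a1 b1).2, hf ▸ (oc _ a2 b2).1, hf ▸ (oc _ a2 b2).2]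
  have eQ : e ∈ Q := he ▸ conj_mem_of_norm (nQ a1) wQ
  have fQ : f ∈ Q := hf ▸ conj_mem_of_norm (nQ a2) wQ
  have s0 : ∀ a, Ω a → a * z = z * a ∧ (a ≠ z → Ω (a * z)) := fun a ha => by
    simp only [← hO, O, Finset.mem_insert, Finset.mem_singleton] at ha ⊢
    refine ⟨E.cent a ?_, fun h => ?_⟩
    · rcases ha with k | k | k | k | k | k | k <;> simp only [k, E.zQ, mul_mem, wQ, eQ, fQ]
    · rcases ha with k | k | k | k | k | k | k <;> simp [k, zz] at h ⊢
  have s1 : ∀ a b, Ω a → Ω b → a * b = b * a ∧ (a ≠ b → Ω (a * b)) := by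
    rintro a _ ha ⟨l, hl, rfl⟩
    obtain ⟨h1, h2⟩ := s0 _ (cj _ (inv_mem hl) a ha)
    refine ⟨by simpa [mul_assoc] using congrArg (l * · * l⁻¹) h1, fun n => ?_⟩
    simpa [mul_assoc] using cj l hl _ (h2 fun k => n (by rw [← k]; simp [mul_assoc]))
  have s2 : ∀ a, Ω a → a * a = 1 ∧ a ≠ 1 := by rintro _ ⟨l, hl, rfl⟩; simp [E.zz, z1]
  let U : Subgroup G :=
    { carrier := {a | a = 1 ∨ Ω a}
      one_mem' := .inl rfl
      mul_mem' := by
        rintro a b (rfl | ha) (rfl | hb)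
        exacts [by simp, by simp [hb], by simp [ha], (em (a = b)).imp (fun k : a = b => k ▸ (s2 a ha).1) (s1 a b ha hb).2]
      inv_mem' := by
        rintro a (rfl | ha)
        exacts [by simp, .inr (by rwa [inv_eq_of_mul_eq_one_right (s2 a ha).1])] }
  have oe : Ω e := he ▸ (oc _ a1 b1).1
  have hU : closure {z, w, e} = U := by
    refine le_antisymm ((closure_le _).2 (by rintro _ (h | h | h) <;> rw [h]; exacts [.inr oz, .inr ow.1, .inr oe])) ?_
    have mz : z ∈ closure {z, w, e} := subset_closure (by simp)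
    have mw : w ∈ closure {z, w, e} := subset_closure (by simp)
    have me : e ∈ closure {z, w, e} := subset_closure (by simp)
    have mf : f ∈ closure {z, w, e} := by
      have k := (hO _).2 ((s1 e w oe ow.1).2 fun k => ve (.inr (.inr (.inl k))))
      have i : ∀ x, e * w = x → e = x * w := fun x h => by rw [← h, mul_assoc, ww, mul_one]
      simp only [O, Finset.mem_insert, Finset.mem_singleton] at k
      rcases k with k | k | k | k | k | k | k
      · exact (ve (.inr (.inr (.inr ((i _ k).trans zw.symm))))).elim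
      · exact (ve (.inl ((i _ k).trans ww))).elim
      · exact (ve (.inr (.inl ((i _ k).trans (by rw [zw, mul_assoc, ww, mul_one]))))).elim
      · exact (w1 (by simpa using k)).elim
      · exact (wz (by simpa using k)).elim
      · exact k ▸ mul_mem me mw
      · exact (mul_mem_cancel_right mz).1 (k ▸ mul_mem me mw)
    rintro a (rfl | ha)
    · exact one_mem _
    simp only [← hO, O, Finset.mem_insert, Finset.mem_singleton] at ha
    rcases ha with k | k | k | k | k | k | k <;> simp only [k, mul_mem, mz, mw, me, mf]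
  have nU : Gl ≤ N(U) := le_normalizer_iff.2 (by rintro l hl a (rfl | ha); exacts [by simp, .inr (cj l hl a ha)])
  have kT : T = Gl ⊓ C(U) := ((ts.max _ (le_inf (ts.le.trans inf_le_right) fun t ht => mem_cent.2 (by
    rintro _ (rfl | ⟨l, hl, rfl⟩)
    · simp
    · simpa [mul_assoc] using congrArg (l * · * l⁻¹) (mem_cent1.1 (cz (ts.le (conj_mem_of_norm' (ts.nrm hl) ht)).1.1)).symm))
    inf_le_left (norms_inf le_normalizer (norms_cent nU))).resolve_right fun k =>
      dz (mul_inv_eq_iff_eq_mul.2 (mem_cent.1 (k.ge dl).2 z (.inr oz)).symm)).symm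
  have bs : ∀ a b c, Ω a → Ω b → Ω c → b ≠ a → ¬ V4 a b c → (⟨a, b, c⟩ : (_ : G) × (_ : G) × G) ∈
      O.sigma fun a => (O.erase a).sigma fun b => O \ {a, b, b * a} := fun a b c ha hb hc n v => by
    simp only [V4, not_or] at v
    simp [hO, ha, hb, hc, n, v]
  refine ⟨e, eQ, (s2 e oe).1, (s1 e w oe ow.1).1, ve, hU ▸ nU, hU ▸ kT, p1, fun l hl h1 h2 => ?_, hU.symm ▸ fun a ha b hb c hc a1 b1 ba v => ?_⟩
  · let V := Vs E.zz ww zw.symm
    have : Finite (V : Set G) := Set.Finite.subset (Set.toFinite {1, z, w, w * z}) fun _ h => h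
    have nV : ∀ l, V4 z w (l * z * l⁻¹) → V4 z w (l * w * l⁻¹) → l ∈ N(V) := fun l h1 h2 => mem_normalizer_fintype (by
      rintro _ (k | k | k | k) <;> rw [k]
      exacts [by simp, h1, h2, by simpa [mul_assoc] using V.mul_mem h2 h1])
    exact (eq_of_idx (H := N(V).subgroupOf Gl) (by norm_num) in7 (fun n h => nV _ (hn _ h).1 (hn _ h).2) fun k =>
      ve (he ▸ conj_mem_of_norm (H := V) (k.ge (mem_top ⟨c₁, b1⟩)) (.inr (.inr (.inl rfl))))).le (x := ⟨l, hl⟩) (nV l h1 h2)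
  · have := Fintype.ofFinite (Gl ⧸ T.subgroupOf Gl)
    refine (fun k => let ⟨q, _, k⟩ := Finset.mem_image.1 k; ⟨_, q.out.2, by simpa using k⟩) ((Finset.eq_of_subset_of_card_le
      (s := Finset.univ.image fun q : Gl ⧸ T.subgroupOf Gl =>
      (⟨q.out.1 * z * q.out.1⁻¹, q.out.1 * w * q.out.1⁻¹, q.out.1 * e * q.out.1⁻¹⟩ : (_ : G) × (_ : G) × G)) ?_ ?_).ge
      (bs a b c (ha.resolve_left a1) (hb.resolve_left b1) (hc.resolve_left fun k => v (.inl k)) ba v))
    · intro x hx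
      obtain ⟨q, -, rfl⟩ := Finset.mem_image.1 hx
      exact bs _ _ _ (cj _ q.out.2 _ oz) (cj _ q.out.2 _ ow.1) (cj _ q.out.2 _ oe) (by simpa using wz) (by simpa [V4] using ve)
    · rw [Finset.card_image_of_injective, Finset.card_univ, ← Nat.card_eq_fintype_card, ← index, ← relIndex, ts.idx, Finset.card_sigma,
        Finset.sum_const_nat (m := 24), cO]
      · intro a ha
        rw [Finset.card_sigma, Finset.sum_const_nat (m := 4), Finset.card_erase_of_mem ha, cO]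
        intro b hb
        obtain ⟨ba, hb⟩ := Finset.mem_erase.1 hb
        rw [Finset.card_sdiff_of_subset (by simp [Finset.insert_subset_iff, ha, hb, hO, (s1 b a ((hO _).1 hb) ((hO _).1 ha)).2 ba]), cO,
          Finset.card_eq_three.2 ⟨_, _, _, ba.symm, by simpa using (s2 b ((hO _).1 hb)).2, by simpa using (s2 a ((hO _).1 ha)).2, rfl⟩]
      · intro q q' k
        rw [← q.out_eq', ← q'.out_eq', QuotientGroup.eq, mem_subgroupOf]
        refine kT.ge ⟨Subtype.property _, ?_⟩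
        rw [← hU, SetLike.mem_coe, centralizer_closure]
        simp only [Sigma.mk.injEq, heq_eq_eq] at k
        rintro _ (h | h | h) <;> simp only [coe_mul, coe_inv] <;> rw [h, ← mul_assoc, mul_assoc _ q'.out.1, ← inv_mul_eq_iff_eq_mul, inv_inv,
          ← mul_assoc, ← mul_assoc, ← eq_mul_inv_iff_mul_eq]
        exacts [k.1, k.2.1, k.2.2]
end H19.AM
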