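/-
The Conway group pieces NE, CE, D0 of the amalgam theorem.
-/
import Cfsg.Agent.H7.AM0

set_option autoImplicit false
set_option linter.unusedVariables false
set_option linter.unusedSectionVars false
set_option linter.unusedSimpArgs false

namespace H19.AM
open Cfsg H15 H19 H0 H0.Mo H0.Y H7.AM Subgroup Function
open scoped commutatorElement

universe u v
open scoped Pointwise

theorem sep {i j : GolayPt} (h : i ≠ j) : ∃ c ∈ cw, i ∈ c ∧ j ∉ c := by
  obtain ⟨σ, hσ, rfl, rfl⟩ := m24_trans2 (a := pt 0) (b := pt 4) (by decide) h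
  exact ⟨σ • S 8536111, smul_mem_cw hσ (S_mem_cw (by decide +kernel)), (apply_mem_smul_iff _ _ _).2 (by decide),
    fun e => absurd ((apply_mem_smul_iff _ _ _).1 e) (by decide)⟩

theorem cross {v : Lam} (n : sqNorm (cf v) = 64) (h : ∀ i j, i ≠ j → cf v i = 0 ∨ cf v j = 0) : cf v ∈ stdCross := by
  obtain ⟨i, hi⟩ : ∃ i, cf v i ≠ 0 := by
    by_contra! H; rw [show cf v = 0 from funext H, sqNorm_zero] at n; omega
  have e : cf v = Pi.single i (cf v i) := funext fun j => by
    by_cases hj : j = i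
    · rw [hj, Pi.single_eq_same]
    · rw [Pi.single_eq_of_ne hj]; exact (h i j (Ne.symm hj)).resolve_left hi
  rw [e, sqNorm_single] at n
  exact ⟨i, _, sq_eq_sq_iff_eq_or_eq_neg.1 (n.trans (by norm_num : (64 : ℤ) = 8 ^ 2)), e⟩

theorem ne : H7.AM.NE := fun g hg => mem_NN_of_e8 (i := pt 23) <| cross ((co_norm _ _).trans (norm_e8 _)) fun i j h => by
  obtain ⟨c, hc, a, b⟩ := sep h
  obtain ⟨d, hd, e⟩ : g⁻¹ * sgn hc * g⁻¹⁻¹ ∈ EE := (mem_normalizer_iff.1 (inv_mem hg) _).1 ⟨c, hc, rfl⟩
  have k : sgn hc • g • lE = g • sgn hd • lE := by rw [← e, smul_smul, smul_smul]; congr 1; group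
  have k1 := congrArg (cf · i) k
  have k2 := congrArg (cf · j) k
  simp only [cf_sgn, a, b, if_true, if_false] at k1 k2
  rw [sgn, mono_e8, e8_eq, co_zsmul] at k1 k2
  change -cf (g • lE) i = _ * cf (g • lE) _ at k1
  change cf (g • lE) j = _ * cf (g • lE) _ at k2
  change cf (g • lE) i = 0 ∨ cf (g • lE) j = 0
  split_ifs at k1 k2 <;> omega

/-- the 23-cycle -/
def al24 : M24 := ⟨_, alpha_mem⟩

theorem al_some (t : ZMod 23) : al24.1 (some t) = some (t + 1) := rfl
theorem al_none : al24.1 none = none := rfl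

theorem inv_all {P : GolayPt → Prop} (h : ∀ p, P p → P (al24.1 p)) {t : ZMod 23} (a : P (some t)) (s : ZMod 23) :
    P (some s) := by
  have k (n : ℕ) : P (some (t + n)) := by
    induction n with
    | zero => simpa using a
    | succ n ih => simpa [al_some, add_assoc] using h _ ih
  simpa using k (s - t).val

theorem ord23 {x : Co0} (h : x ^ 23 = 1) (n : x ≠ 1) : orderOf x = 23 :=
  haveI := Fact.mk (by norm_num : Nat.Prime 23); orderOf_eq_prime h n

theorem syl23 {x : Co0} (h : x ^ 23 = 1) (n : x ≠ 1) : Syl 23 (zpowers x) ⊤ := by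
  have o := Nat.card_zpowers x ▸ ord23 h n
  have := Fact.mk (by norm_num : Nat.Prime 23)
  refine syl_mk le_top (pG_iff.2 (.of_card (n := 1) o)) fun d => ?_
  have := (zpowers x).card_mul_index
  rw [relIndex_top_right] at d
  rw [card_Co0, o] at this
  omega

theorem small {c : Finset GolayPt} (hc : c ∈ cw) (h : ∀ t, some t ∉ c) : c = ∅ := by
  have : c.card ≤ 1 := Finset.card_le_one.2 fun a ha b hb => by
    cases a; cases b; exacts [rfl, absurd hb (h _), absurd ha (h _)]
  exact Finset.card_eq_zero.1 (by have := cw_card hc; omega)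

theorem ce0 {y : Co0} (c : Commute (prmH al24) y) {n : ℕ} (hn : y ^ 2 ^ n = 1) : y ∈ center Co0 := by
  have f : prmH al24 • y • lE = y • lE := by
    rw [smul_smul, c.eq, mul_smul]; congr 1
    exact (mono_e8 alpha_mem cw_empty _ _).trans (by simp; rfl)
  have k := inv_all (P := fun p => cf (y • lE) p = cf (y • lE) (some 0)) (t := 0)
    (fun p e => by rw [← e, ← cf_prm al24.2 _ p]; exact congrArg (cf · _) f.symm) rfl
  have nm := (co_norm y lE).trans (norm_e8 _)
  have z : cf (y • lE) (some 0) = 0 := by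
    have := nm
    rw [sqNorm, Fintype.sum_option, Finset.sum_congr rfl fun t _ => by rw [k t], Finset.sum_const, Finset.card_univ,
      ZMod.card, nsmul_eq_mul] at this
    generalize cf (y • lE) (some 0) = b at this
    generalize cf (y • lE) none = a at this
    have : -8 ≤ a ∧ a ≤ 8 ∧ -1 ≤ b ∧ b ≤ 1 := by push_cast at this; refine ⟨?_, ?_, ?_, ?_⟩ <;> nlinarith
    obtain ⟨h1, h2, h3, h4⟩ := this
    interval_cases a <;> interval_cases b <;> simp_all
  obtain ⟨_, ⟨d, hd, rfl⟩, σ, rfl⟩ := exists_NN (mem_NN_of_e8 (g := y) (i := pt 23) (cross nm fun i j h => by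
    cases i; cases j; exacts [absurd rfl h, .inr ((k _).trans z), .inl ((k _).trans z)]))
  have e : sgn ((smul_mem_cw_iff al24.2).2 hd) * prmH (al24 * σ) = sgn hd * prmH (σ * al24) := by
    rw [← prm_sgn _ hd, map_mul, map_mul, ← mul_assoc _ (prmH σ), ← c.eq]; group
  rw [← mono_eq, ← mono_eq] at e
  obtain ⟨e1, e2⟩ := mono_inj _ _ _ _ e
  have m (p) : al24.1 p ∈ d ↔ p ∈ d := by conv_lhs => rw [← e2, apply_mem_smul_iff]
  have ce : sgn hd ∈ center Co0 := by
    by_cases h : ∃ t, some t ∈ d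
    · obtain ⟨t, h⟩ := h
      obtain rfl := (Finset.compl_eq_empty_iff _).1 (small (cw_compl hd) fun s => by
        simpa using inv_all (P := (· ∈ d)) (fun p => (m p).2) h s)
      exact coN_mem_center
    · obtain rfl := small hd (not_exists.1 h)
      exact sgn_empty ▸ one_mem _
  have cm (p) : σ.1 (al24.1 p) = al24.1 (σ.1 p) := (congrArg (· p) e1).symm
  have s2 : σ.1 ^ 2 ^ (n + 1) = 1 := by
    have : (sgn hd * prmH σ) ^ 2 ^ (n + 1) = 1 := by rw [pow_succ, pow_mul, hn, one_pow]
    rw [(show Commute (sgn hd) (prmH σ) from (mem_center_iff.1 ce _).symm).mul_pow, pow_succ', pow_mul, sq, sgn_sq, one_pow,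
      one_mul, ← pow_succ', ← map_pow, ← map_one prmH] at this
    exact congrArg Subtype.val (prmH_inj this)
  have s0 : σ.1 none = none := (by decide : ∀ p, p = al24.1 p → p = none) _ (cm none)
  have := Fact.mk Nat.prime_two
  obtain ⟨b, hb, b0⟩ := Equiv.Perm.exists_fixed_point_of_prime' (by decide) s2 s0
  obtain ⟨t, rfl⟩ := Option.ne_none_iff_exists'.1 b0
  obtain rfl : σ = 1 := Subtype.ext (Equiv.ext fun p => by
    cases p; exacts [s0, inv_all (P := fun p => σ.1 p = p) (fun p e => by rw [cm, e]) hb _])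
  simpa using ce

theorem ce : H7.AM.CE := fun γ y h h1 c ⟨n, hn⟩ => by
  have a : prmH al24 ^ 23 = 1 := by rw [← map_pow, show al24 ^ 23 = 1 from Subtype.ext (by decide +kernel), map_one]
  obtain ⟨k, -, e⟩ := (syl23 h h1).sconj (syl23 a fun e => absurd (congrArg Subtype.val (prmH_inj (e.trans (map_one _).symm)))
    (by decide +kernel))
  obtain ⟨_, ⟨j, rfl⟩, e⟩ := mem_cj'.1 (e ▸ mem_zpowers _ : prmH al24 ∈ cj k (zpowers γ))
  have := ce0 (y := k * y * k⁻¹) (e ▸ (c.zpow_left j).conj k) (n := n) (by rw [conj_pow, hn]; group)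
  simpa [mul_assoc] using (normal_of_characteristic _).conj_mem _ this k⁻¹

def be : Equiv.Perm GolayPt := ⟨fun p => p.map (2 * ·), fun p => p.map (12 * ·), by decide, by decide⟩
theorem rep_be : H15.Rep be 0xbd6717b56939461b52507314831040 := by unfold H15.Rep; decide +kernel
def be24 : M24 := ⟨be, rep_be.mem_M24 (by decide +kernel)⟩

theorem be_fix : ∀ c ∈ cw, be • c = c → c = ∅ ∨ c = Finset.univ ∨ projInv • c = symmDiff Finset.univ c :=
  forall_cw (fun m => !Nat.beq (act 0xbd6717b56939461b52507314831040 m) m || Nat.beq m 0 || Nat.beq m 16777215 ||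
    Nat.beq (act cGamma m) (16777215 ^^^ m)) (by decide +kernel) fun m hm h e => by
    rw [rep_be.smul_S] at e
    simp only [S_inj (rep_be.lt_act m) (isC_lt hm) e, Nat.beq_refl, Bool.not_true, Bool.false_or, Bool.or_eq_true,
      Nat.beq_eq] at h
    rcases h with (h | h) | h
    exacts [.inl (h ▸ S_zero), .inr (.inl (h ▸ S_all)), .inr (.inr (by rw [rep_gamma.smul_S_eq h, S_xor, S_all]))]

theorem d0 : H7.AM.D0 := by
  refine ⟨prmH be24, prmH_mem _, prmH ⟨_, gamma_mem⟩, prmH_mem _, ?_, fun e => ?_, ?_, ?_⟩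
  · rw [← map_pow, show be24 ^ 11 = 1 from Subtype.ext (by decide +kernel), map_one]
  · exact absurd (congrArg Subtype.val (prmH_inj (e.trans (map_one _).symm))) (by decide +kernel)
  · rw [← map_inv, ← map_inv, ← map_mul, ← map_mul]; exact congrArg _ (Subtype.ext (by decide +kernel))
  rintro _ ⟨c, hc, rfl⟩ h n
  have := prm_sgn be24 hc
  rw [h.eq, mul_inv_cancel_right] at this
  rcases be_fix c hc (mono_inj _ _ _ _ this).2.symm with rfl | rfl | e
  exacts [absurd (sgn_empty ▸ one_mem _) n, absurd coN_mem_center n, by rw [prm_sgn, coN, sgn_mul]; congr 1]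

end H19.AM
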