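/-
The piece AL of the amalgam theorem.
-/
import Cfsg.Agent.H19.AM4

set_option autoImplicit false
set_option linter.unusedVariables false
set_option linter.unusedSectionVars false
set_option linter.unusedSimpArgs false

namespace H19.AM
open Cfsg H15 H19 H0 H0.Mo H0.Y H7.AM Subgroup Function
open scoped commutatorElement

universe u v
theorem modEq_cent {G : Type u} [Group G] [Finite G] {B K : Subgroup G} {p : ℕ} (hB : PG p B) (hl : p.Prime)
    (hn : B ≤ N(K)) : #K ≡ #(K ⊓ C(B)) [MOD p] := by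
  have := Fact.mk hl
  let _ : MulAction B K := MulAction.compHom K (K.normalizerMonoidHom.comp (inclusion hn))
  have h1 := hB.isPGroup.card_modEq_card_fixedPoints K
  have : MulAction.fixedPoints B K = (C(B).subgroupOf K : Set K) := by
    ext x
    exact ⟨fun hx => mem_cent.2 fun b hb =>
      mul_inv_eq_iff_eq_mul.1 (congrArg Subtype.val (hx ⟨b, hb⟩)), fun hx b =>
      Subtype.ext (mul_inv_eq_iff_eq_mul.2 (mem_cent.1 hx b b.2))⟩
  rwa [this, SetLike.coe_sort_coe, card_subgroupOf, inf_comm] at h1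

theorem cnt (ce : H7.AM.CE) {W : Subgroup Co0} {γ : Co0} (p : IsPGroup 2 W) (l : center Co0 ≤ W) (n : zpowers γ ≤ N(W))
    (h : γ ^ 23 = 1) (h1 : γ ≠ 1) : W = center Co0 ∨ 2 ^ 12 ≤ #W := by
  have := Fact.mk Nat.prime_two
  have k := modEq_cent (syl23 h h1).pi (by norm_num) n
  rw [show W ⊓ C(zpowers γ) = center Co0 from le_antisymm (fun x hx => ce γ x h h1 (mem_cent.1 hx.2 _ (mem_zpowers _))
    (let ⟨n, e⟩ := p ⟨x, hx.1⟩; ⟨n, congrArg Subtype.val e⟩)) (le_inf l (center_le_centralizer _)), card_center] at k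
  obtain ⟨j, e⟩ := IsPGroup.iff_card.1 p
  rw [e] at k
  refine (lt_or_ge j 12).imp (fun hj => ?_) fun hj => e ▸ Nat.pow_le_pow_right two_pos hj
  obtain rfl : j = 1 := (by decide : ∀ j < 12, 2 ^ j ≡ 2 [MOD 23] → j = 1) j hj k
  exact (eq_of_le_of_card_ge l (by rw [e, card_center]; rfl)).symm

theorem al (ce : H7.AM.CE) (je : H7.AM.JE) : H7.AM.AL := fun Y γ p l nl n h h1 => by
  have := Fact.mk Nat.prime_two
  have n' := zpowers_le.2 n
  refine ⟨(cnt ce p l n' h h1).resolve_left fun e => nl e.le, fun c => je Y ?_ c⟩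
  have irr (W) (a : center Co0 ≤ W) (b : W ≤ Y) (m : zpowers γ ≤ N(W)) : W = center Co0 ∨ W = Y :=
    (cnt ce (p.to_le b) a m h h1).imp_right fun e => eq_of_le_of_card_ge b (c.trans_le e)
  have f : Phi Y ≤ center Co0 := by
    rcases irr (center Co0 ⊔ Phi Y) le_sup_left (sup_le l (map_subtype_le _))
      (norms_sup le_normalizer_of_normal (n'.trans (H1.normalizer_le_normalizer_map_subtype _))) with e | e
    · exact le_sup_right.trans e.le
    refine absurd (subgroupOf_eq_top.1 (frattini_nongenerating (map_injective Y.subtype_injective ?_))) nl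
    rwa [Subgroup.map_sup, subgroupOf_map_subtype, ← MonoidHom.range_eq_map, range_subtype, inf_eq_left.2 l]
  have sq (x) (hx : x ∈ Y) : x * x = 1 ∨ x * x = coN :=
    H15.mem_center_iff.1 (f (pow_two x ▸ H4.pow_mem_map_frattini p hx))
  have zz : coN * coN = 1 := sgn_sq _
  have ab : ∀ x ∈ Y, ∀ y ∈ Y, Commute x y := by
    rcases irr (Y ⊓ C(Y)) (le_inf l (center_le_centralizer _)) inf_le_left (norms_inf n' (norms_cent n')) with e | e
    · by_contra! H
      obtain ⟨m, -, e⟩ := ES.exists_width (Q := Y) (z := coN) ⟨l coN_mem_center, coN_ne_one, zz,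
        fun x hx y hy => H15.mem_center_iff.1 (f (H4.commutator_mem_map_frattini p hx hy)), sq,
        fun x _ => Subgroup.mem_center_iff.1 coN_mem_center x,
        fun x hx hc => H15.mem_center_iff.1 (e.le ⟨hx, mem_cent.2 fun y hy => (hc y hy).symm⟩), H⟩
      have := Nat.pow_right_injective le_rfl (c.symm.trans e)
      omega
    · exact fun x hx y hy => mem_cent.1 (e.ge hy).2 x hx
  let W : Subgroup Co0 := ⟨⟨⟨{x | x ∈ Y ∧ x * x = 1}, fun {x y} a b => ⟨mul_mem a.1 b.1, by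
    rw [(ab _ b.1 _ a.1).mul_mul_mul_comm, a.2, b.2, one_mul]⟩⟩, one_mem _, one_mul _⟩,
    fun a => ⟨inv_mem a.1, by rw [← mul_inv_rev, a.2, inv_one]⟩⟩
  have nY {x} (hx : x ∈ Y) : γ * x * γ⁻¹ ∈ Y := (mem_normalizer_iff.1 n x).1 hx
  rcases irr W (fun x hx => ⟨l hx, by rcases H15.mem_center_iff.1 hx with rfl | rfl; exacts [one_mul _, zz]⟩)
    (fun _ a => a.1) (zpowers_le.2 (mem_normalizer_fintype fun x a => ⟨nY a.1, by rw [conj_mul, a.2]; group⟩)) with e | e
  swap; · exact fun x hx => (e.ge hx).2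
  refine fun x hx => (sq x hx).elim id fun x2 => (e.ge (ce (γ * γ) x (by rw [← pow_two, pow_right_comm, h, one_pow])
    (fun e => h1 (by rw [← h, show 23 = 2 * 11 + 1 from rfl, pow_succ, pow_mul, pow_two, e, one_pow, one_mul])) ?_
    ⟨2, by rw [show 2 ^ 2 = 2 * 2 from rfl, pow_mul, pow_two x, x2, pow_two, zz]⟩)).2
  have k := Subgroup.mem_center_iff.1 (e.le (⟨mul_mem (nY hx) hx, by
    rw [(ab _ hx _ (nY hx)).mul_mul_mul_comm, conj_mul, x2, Subgroup.mem_center_iff.1 coN_mem_center γ,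
      mul_inv_cancel_right, zz]⟩ : γ * x * γ⁻¹ * x ∈ W))
  calc γ * γ * x = γ * (γ * x * γ⁻¹ * x) * x⁻¹ * γ := by group
    _ = γ * x * γ⁻¹ * x * x * (γ * x * γ⁻¹ * x)⁻¹ * (γ * γ) := by rw [k]; group
    _ = x * (γ * γ) := by rw [← k x, mul_inv_cancel_right]

end H19.AM
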