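/-
Inflation from the Conway quotient (S5590: S1).
-/
import Cfsg.Agent.H19.BX2

set_option autoImplicit false
set_option linter.unusedVariables false
set_option linter.unusedSectionVars false
set_option linter.unusedSimpArgs false

namespace H19.BX
open Cfsg H19 H15.BX Subgroup Function Module
open H1.RC (Rp)
open scoped commutatorElement Pointwise

universe u v
variable {F V : Type u} [Field F] [AddCommGroup V] [Module F V] {G : Type} [Group G] {X : Type v} [Group X] {Ω : Type}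
  {κ : X →* G} {S T M N : Subgroup G} {ρ : G → End F V} {d D : X → V} {α : G →* Equiv.Perm Ω} {O : Set Ω}
  {a : Ω → Ω → Prop} {x₀ : Ω}

/-- inflation from a quotient by a normal subgroup of invertible order -/
theorem infl {G' : Type} [Group G'] {T' : Subgroup G'} {π : G' → End F V} (e : Ex κ T ρ d)
    (ot : ∀ v, ρ 1 v = v → ∃ a, κ a = 1 ∧ d a = v) (l : N ≤ T) (n : T ≤ N(N)) (i : (#N : F) ≠ 0) {p : End F V}
    (p1 : ∀ t ∈ T, ∀ v, ρ t (p v) = p (ρ t v)) (p2 : ∀ t ∈ N, ∀ v, ρ t (p v) = p v) (p3 : ∀ v, (∀ t ∈ N, ρ t v = v) → p v = v)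
    (χ : T →* G') (c1 : ∀ x, χ x = 1 ↔ x.1 ∈ N) (c2 : ∀ g, g ∈ T' ↔ ∃ x, χ x = g) (c3 : ∀ x v, π (χ x) v = ρ x (p v))
    (r : Rp T' π) (H : ∀ (Y : Type v) [Group Y] (κ' : Y →* G') (d' : Y → V), Ey κ' T' π d' → Sp κ' T' π d') : Sp κ T ρ d := by
  classical
  have pp : ∀ v, p (p v) = p v := fun v => p3 _ fun t m => p2 t m v
  have e' : Ex κ T ρ fun a => p (d a) := ⟨e.rp, e.sur, fun a b r s => by rw [e.add a b r s, map_add], fun x a r s => by
    rw [e.eqv x a r s, p1 _ r]⟩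
  suffices h : Sp κ T ρ fun a => p (d a) by
    simpa using Sp.add h (g3a (d := fun a => d a - p (d a)) ⟨e.rp, e.sur, fun a b r s => by rw [e.add a b r s, map_add]; abel,
      fun x a r s => by rw [e.eqv x a r s, map_sub, p1 _ r]⟩ l n i p1 p2 p3 fun a _ => by rw [map_sub, pp, sub_self])
  obtain ⟨D, D1, D2⟩ := g1 (e'.mono l) bot_le (by rwa [relIndex_bot_left]) e'.bot
  replace D2 : ∀ a, κ a = 1 → D a = p (d a) := D2
  have a : ∀ x y, κ x ∈ N → κ y ∈ N → p (D (x * y)) = p (D x) + p (D y) := fun x y a b => by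
    rw [D1 x y a b, map_add, ← p1 _ (l a), p2 _ a]
  have un : ∀ c : X → V, (∀ x y, κ x ∈ N → κ y ∈ N → c (x * y) = c x + c y) → (∀ x, κ x = 1 → c x = 0) →
      ∀ x, κ x ∈ N → c x = 0 := fun c a z x m => by
    have : ∀ k : ℕ, c (x ^ k) = (k : F) • c x := fun k => by
      induction k with
      | zero => simp [z]
      | succ k h => rw [pow_succ, a _ _ (by simpa using pow_mem m k) m, h]; simp [add_smul]
    exact (smul_eq_zero.1 ((this #N).symm.trans (z _ (by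
      rw [map_pow]; exact congrArg Subtype.val (pow_card_eq_one' (x := (⟨_, m⟩ : N))))))).resolve_left i
  have cj : ∀ x y, κ x ∈ T → κ y ∈ N → κ (x * y * x⁻¹) ∈ N := fun x y a b => by
    simpa using (mem_normalizer_iff.1 (n a) _).1 b
  let κ' : T.comap κ →* G' := χ.comp (κ.subgroupComap T)
  have k1 : ∀ x : T.comap κ, κ' x = 1 ↔ κ x ∈ N := fun x => c1 ⟨_, x.2⟩
  suffices ey : Ey κ' T' π fun x => p (D x) by
    obtain ⟨E, E1, E2⟩ := H _ κ' _ ey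
    refine ⟨fun x => if h : κ x ∈ T then p (E ⟨x, h⟩) else 0, fun x y s t => ?_, fun x s => ?_⟩
    · have := E1 ⟨x, s⟩ ⟨y, t⟩ ((c2 _).2 ⟨_, rfl⟩) ((c2 _).2 ⟨_, rfl⟩)
      have m : κ (x * y) ∈ T := by simpa using mul_mem s t
      simp only [dif_pos s, dif_pos t, dif_pos m]
      rw [show (⟨x * y, m⟩ : T.comap κ) = ⟨x, s⟩ * ⟨y, t⟩ from rfl, this, map_add]
      exact congrArg _ ((congrArg p (c3 ⟨_, s⟩ _)).trans ((p1 _ s _).symm.trans (congrArg _ (pp _))))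
    · have m : κ x ∈ T := s ▸ one_mem _
      simp only [dif_pos m]
      rw [E2 ⟨x, m⟩ ((k1 _).2 (show κ x ∈ N from s ▸ one_mem _)), pp, D2 x s, pp]
  refine ⟨⟨r, fun g m => ?_, fun x y s t => a _ _ ((k1 _).1 s) ((k1 _).1 t), fun x y _ s => ?_⟩, fun x => (c2 _).2 ⟨_, rfl⟩,
    fun v h => ?_⟩
  · obtain ⟨⟨x, k⟩, rfl⟩ := (c2 g).1 m
    obtain ⟨x, rfl⟩ := e.sur x k
    exact ⟨⟨x, k⟩, rfl⟩
  · refine (sub_eq_zero.1 (un (fun y => p (D (x * y * x.1⁻¹)) - ρ (κ x) (p (D y))) (fun y y' s t => ?_) (fun y s => ?_) y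
      ((k1 _).1 s))).trans ((congrArg _ (pp _)).symm.trans (c3 ⟨_, x.2⟩ _).symm)
    · simp only [← conj_mul]
      rw [a _ _ (cj _ _ x.2 s) (cj _ _ x.2 t), a _ _ s t, map_add]; abel
    · rw [D2 _ (by simp [s]), D2 _ s, e.eqv _ _ x.2 s, pp, pp, p1 _ x.2, sub_self]
  · rw [← map_one χ, c3, coe_one, p2 _ (one_mem _)] at h
    obtain ⟨x, x1, x2⟩ := ot v (by rw [← h, p2 _ (one_mem _)])
    exact ⟨⟨x, show κ x ∈ T from x1 ▸ one_mem _⟩, (k1 _).2 (show κ x ∈ N from x1 ▸ one_mem _), by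
      show p (D x) = v
      rw [D2 x x1, x2, h, h]⟩

open H15 H0 H0.Mo H1.RC in
theorem s0 [NeZero (2 : F)] [FiniteDimensional F V] [Fintype G] (sc : SC.{u, v} F V) {z s t : G} {Q Q' : Subgroup G}
    {f : C[z] →* Spor.Co1} {R : G → Lam → Prop} (h3 : (3 : F) ≠ 0) (S : St Q Q' z s t f R) (r : Rr t ρ) (hz : ρ z ≠ 1) (hs : ρ s ≠ 1)
    (hn : finrank F V ≤ 4371) (e : Ey κ C[t] ρ d) : Sp κ (C[t] ⊓ C[z]) ρ d := by
  obtain ⟨f', R', S'⟩ := S.symm
  have c := S.c2 S' r (S.sm r hz hn) (S'.sm r hs hn) hn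
  have m := S.mP (F := F) (one_mem Q)
  have un : ∀ {h g g'}, g ∈ sCo2 → g' ∈ sCo2 → A f h g → A f h g' → g = g' := fun {h g g'} a b k k' => by
    rcases H15.mem_center_iff.1 (A.cen (inv_mul_cancel h ▸ k.inv.mul k')) with e | e
    · exact inv_mul_eq_one.1 e
    · have : coN • lU = lU := e ▸ mul_mem (inv_mem a) b
      rw [coN_smul] at this
      exact absurd this (by decide +kernel)
  choose χ c1 c2 using fun x : (C[t] ⊓ C[z] : Subgroup _) => S.tot x.2.symm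
  have l : Q ⊓ C[t] ≤ C[t] ⊓ C[z] := fun _ m => ⟨m.2, S.E.le_cent m.1⟩
  have n : C[t] ⊓ C[z] ≤ N(Q ⊓ C[t]) := fun _ m => S.nP m.symm
  obtain ⟨p, -, p2, p3⟩ := proj (rp_mono r.rp inf_le_left) l n m.nz
  refine infl (e.toEx.mono inf_le_left) e.onto l n m.nz (p := pl ρ (Q ⊓ C[t]) 1)
    (fun _ k v => LinearMap.congr_fun (S.c23 r k.symm) v) (fun _ k v => LinearMap.congr_fun (S.q23 r k) v) (fun v h => ?_)
    (MonoidHom.mk' χ fun x y => un (c1 _) (mul_mem (c1 x) (c1 y)) (c2 _) ((c2 x).mul (c2 y))) (fun x => ⟨fun h => ?_, fun h => ?_⟩)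
    (fun g => ⟨fun k => ?_, fun ⟨x, k⟩ => k ▸ c1 x⟩) (fun x v => LinearMap.congr_fun (S.pi_eq r x.2.symm (c2 x) (c1 x)) v) c.rp
    fun Y _ κ' d' => sc Y κ' _ _ d' h3 c
  · have := LinearMap.congr_fun (m.pl (ρ := ρ) (p := p) fun y k => by rw [lm_one, one_smul]; exact LinearMap.ext (p2 y k)) v
    rwa [End.mul_apply, p3 v h] at this
  · exact ⟨(S.M.aker (c2 x)).2 ((show χ x = 1 from h) ▸ one_mem _), x.2.1⟩
  · exact un (c1 x) (one_mem _) (c2 x) (S.M.aQ h.1)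
  · obtain ⟨h, a, b⟩ := S.lift k
    exact ⟨⟨h, a.symm⟩, un (c1 _) k (c2 _) b⟩

theorem s1 [NeZero (2 : F)] [FiniteDimensional F V] (sc : SC.{u, v} F V) : S1.{u, v} F V :=
  fun _ _ _ _ _ _ _ _ _ _ _ _ => s0 sc

end H19.BX
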