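/-
S5855, chunk PG: TH and C2 (see notes/PG.md).
-/
import Cfsg.Agent.H4.PG0

set_option autoImplicit false
set_option linter.unusedSectionVars false
set_option linter.unusedVariables false
set_option linter.unusedSimpArgs false

open Module H4.PG
open scoped commutatorElement
namespace H19.PG

variable {F : Type*} [Field F] [Fintype F] {σ : F →+* F} {q : ℕ}
variable {G : Type*} [Group G] [Finite G] {ρ : G →* Matrix (Fin 7) (Fin 7) F}

/-- a skew multiple of the identity vanishes -/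
theorem sk0 (h : FD σ q) {a : F} (k : ∀ c, c * a + σ (c * a) = 0) : a = 0 := by
  obtain ⟨l, hl⟩ := h.ex
  have k1 := k 1
  have k2 := k l
  rw [one_mul] at k1
  rw [map_mul] at k2
  exact by_contra fun n => hl (mul_right_cancel₀ n (by linear_combination σ l * k1 - k2))

/-- `ψ` is skew on `K₄` -/
theorem ps (h : Md σ q ρ) {g : G} (a : K4 ρ g) : ρ g 4 6 + σ (ρ g 4 6) = 0 := by
  simpa [a.h45] using h.u2 g

theorem z56 (h : Md σ q ρ) {g : G} (a : K4 ρ g) : ρ g 5 6 = 0 := by simp [h.u1, a.h45]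

/-- commutators with the `b_x` lie in `K₁` -/
theorem cn1 (h : Md σ q ρ) {b : G} {x : F} (a : Cn ρ b x 0) (g : G) : K1 ρ ⁅b, g⁆ := by
  have z3 : ρ ⁅b, g⁆ 1 3 = 0 := by simp [h.c13, a.h12, a.h23]
  have z4 : ρ ⁅b, g⁆ 1 4 = 0 := by rw [h.c14, z3]; simp [a.h12, a.h13, a.h24, a.h34]
  exact ⟨h.n2 ⟨a.1, a.h23, a.h24, a.h25⟩ g, h.c12 b g, z3, z4, by
    rw [h.c15, z3, z4]; simp [a.h12, a.h13, a.h14, a.h25, a.h35, a.h45]⟩

/-- column six vanishes on `K₁` -/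
theorem c6 (h : Md σ q ρ) (t0 : T0 ρ) (e1 : E1 ρ) (fx : FX1 ρ) (af : AF ρ) {z : G} (a : K1 ρ z) :
    ρ z 0 6 = 0 ∧ ρ z 1 6 = 0 ∧ ρ z 2 6 = 0 ∧ ρ z 3 6 = 0 ∧ ρ z 4 6 = 0 :=
  h.c5 fx (fun x => (af x).imp fun _ c => h.bx t0 e1 c) z (h.k10 t0 a)

theorem th (h : Md σ q ρ) : TH σ ρ := fun t0 e1 fx af => by
  have k : ∀ b l, Cn ρ b l 0 → ∀ g, ρ g 2 3 * ρ b 3 6 + ρ g 2 4 * ρ b 4 6 = 0 ∧
      ρ g 1 2 * ρ b 2 6 + ρ g 1 3 * ρ b 3 6 + ρ g 1 4 * ρ b 4 6 = -(l * σ (ρ g 4 5)) ∧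
      ρ g 0 1 * ρ b 1 6 + ρ g 0 2 * ρ b 2 6 + ρ g 0 3 * ρ b 3 6 + ρ g 0 4 * ρ b 4 6 =
        l * ρ g 4 6 - ρ b 0 5 * σ (ρ g 4 5) := fun b l a g => by
    have e := h.bx t0 e1 a
    have c := h.k10 t0 (cn1 h a g)
    obtain ⟨z0, z1, z2, -, -⟩ := c6 h t0 e1 fx af (cn1 h a g)
    have b5 := z56 h a.toK4
    refine ⟨?_, ?_, ?_⟩
    · have := h.c26 b g
      rw [z2, c.h24, c.h25, e.h23, e.h24, a.h25, b5] at this
      linear_combination this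
    · have := h.c16 b g
      rw [z1, c.h13, c.h14, c.h15, e.h12, e.h13, e.h14, a.h15, b5, h.u1 g] at this
      linear_combination this
    · have := h.c06 b g
      rw [z0, c.h02, c.h03, c.h04, c.h05, e.h01, e.h02, e.h03, e.h04, b5, h.u1 g] at this
      linear_combination this
  obtain ⟨b, a⟩ := af 1
  have e := h.bx t0 e1 a
  have z : ρ b 4 6 = 0 := sk0 h.toFD fun l => by
    obtain ⟨c, d⟩ := af l
    have := (k c l d b).2.2
    rw [e.h01, e.h02, e.h03, e.h04, a.h45] at this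
    have p := ps h d.toK4
    rw [show ρ c 4 6 = l * ρ b 4 6 by simpa using this] at p
    exact p
  refine ⟨ρ b 1 6, ρ b 2 6, ρ b 3 6, ρ b 0 5, fun g => ?_⟩
  obtain ⟨k1, k2, k3⟩ := k b 1 a g
  rw [z] at k1 k2 k3
  exact ⟨by linear_combination k1, by linear_combination k2, by linear_combination k3⟩

/-- without translations `q^10 ≤ |G : K₁|` -/
theorem j1 (h : Md σ q ρ) (t0 : T0 ρ) : q ^ 10 ≤ h.S1.index :=
  h.i0.trans (Nat.le_of_dvd (Nat.pos_of_ne_zero Subgroup.index_ne_zero_of_finite)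
    (Subgroup.index_dvd_of_le fun g a => h.mem0.2 (h.k10 t0 (h.mem1.1 a))))

/-- `τ ≡ 0` on `K₄` gives `|G : K₃| ≤ q⁴` -/
theorem j3' (h : Md σ q ρ) (z : ∀ g, K4 ρ g → ρ g 3 4 = 0) : h.S3.index ≤ q ^ 4 :=
  (h.i3 (fun g => ρ g 3 5) Set.finite_univ (fun _ _ => trivial) fun g k a b e => ⟨by rw [z g a, z k b], e⟩).trans
    (by rw [h.cF, show 4 = 2 + 2 from rfl, pow_add]; exact Nat.mul_le_mul_left _ h.i4)

/-- a constant third row -/
theorem j2' (h : Md σ q ρ) (z : ∀ g, K3 ρ g → ρ g 2 3 = 0 ∧ ρ g 2 4 = 0) : h.S2.index ≤ q ^ 2 * h.S3.index :=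
  (h.i2 (fun g => ρ g 2 5) Set.finite_univ (fun _ _ => trivial) fun g k a b e =>
    ⟨by rw [(z g a).1, (z k b).1], by rw [(z g a).2, (z k b).2], e⟩).trans (by rw [h.cF])

/-- a constant second row -/
theorem j1' (h : Md σ q ρ) (z : ∀ g, K2 ρ g → ρ g 1 2 = 0 ∧ ρ g 1 3 = 0 ∧ ρ g 1 4 = 0) : h.S1.index ≤ q ^ 2 * h.S2.index :=
  (h.i1 (fun g => ρ g 1 5) Set.finite_univ (fun _ _ => trivial) fun g k a b e =>
    ⟨by rw [(z g a).1, (z k b).1], by rw [(z g a).2.1, (z k b).2.1], by rw [(z g a).2.2, (z k b).2.2], e⟩).trans (by rw [h.cF])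

/-- the first entries on `K₄` -/
theorem e4 (h : Md σ q ρ) (e2 : E2 σ ρ) {g : G} (a : K4 ρ g) : ρ g 0 1 = 0 ∧ ρ g 1 2 = 0 ∧ ρ g 0 2 = ρ g 4 6 := by
  obtain ⟨e1, e, c, e'⟩ := e2
  exact ⟨(e1 g).trans a.h45, by simp [e, a.h45], by simp [e', a.h45]⟩

theorem c2 (h : Md σ q ρ) : C2 σ ρ := fun t0 e2 => by
  by_contra! n
  have e1 := e2.1
  have q1 := j1 h t0
  obtain ⟨g1, -, -, -, -, a1⟩ := h.tr 0 0 0 0 1
  by_cases i : ∃ s, K2 ρ s ∧ ρ s 1 3 ≠ 0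
  · obtain ⟨s0, b0, n0⟩ := i
    have z3 : ∀ s g, K2 ρ s → ρ ⁅s, g⁆ 1 3 = 0 := fun s g b => by simp [h.c13, (e4 h e2 b.toK4).2.1, b.h23]
    have t : ∀ g, ρ g 3 4 = 0 := fun g => by
      have := n _ (h.n2 b0 g) (z3 s0 g b0)
      rw [h.c14, z3 s0 g b0, (e4 h e2 b0.toK4).2.1, b0.h24, b0.h34] at this
      simpa [n0] using this
    have k : ∀ s, K2 ρ s → ∀ g, ρ s 4 6 * ρ g 2 3 = ρ g 4 5 * ρ s 1 3 ∧
        ρ s 4 6 * ρ g 2 4 = ρ s 1 3 * ρ g 3 5 + 2 * ρ s 1 4 * ρ g 4 5 := fun s b g => by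
      obtain ⟨f1, f2, f3⟩ := e4 h e2 b.toK4
      have c := h.n2 b g
      have c4 := n _ c (z3 s g b)
      have e := h.bx t0 e1 (x := ρ s 1 3 * ρ g 3 5 + ρ s 1 4 * ρ g 4 5) ⟨c.1, h.c12 s g, z3 s g b, c4, c.h23, c.h24, by
        rw [h.c15, z3 s g b, c4, f2, b.h25, b.h35, b.h45]; ring, c.h25⟩
      constructor
      · have := h.c03 s g
        rw [e.h03, e.h02, f1, f3, b.h23, e1 g] at this
        linear_combination -this
      · have := h.c04 s g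
        rw [e.h04, e.h03, e.h02, f1, f3, b.h24, b.h34, e1 g, t g] at this
        linear_combination -this
    have p0 : ρ s0 4 6 ≠ 0 := fun z => n0 (by simpa [z, a1] using (k s0 b0 g1).1.symm)
    have i3 := j3' h fun g _ => t g
    have i2 := j2' h fun g a => ⟨by simpa [p0, a.h45] using (k s0 b0 g).1, by simpa [p0, a.h45, a.h35] using (k s0 b0 g).2⟩
    have i1 := h.i1 (fun g => (ρ g 4 6, ρ g 1 5)) (S := {c | c + σ c = 0} ×ˢ Set.univ) (Set.toFinite _)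
      (fun g a => ⟨ps h a.toK4, trivial⟩) fun g k' a b e => by
        obtain ⟨e, e'⟩ := Prod.mk.inj e
        have w : ρ g 1 3 = ρ k' 1 3 := by
          linear_combination (k k' b g1).1 - (k g a g1).1 + ρ g1 2 3 * e - (ρ g 1 3 - ρ k' 1 3) * a1
        have z2 : ρ (g * k'⁻¹) 1 2 = 0 := by rw [h.d12, (e4 h e2 a.toK4).2.1, (e4 h e2 b.toK4).2.1, sub_zero]
        have z3 : ρ (g * k'⁻¹) 1 3 = 0 := by rw [h.d13, z2, w]; ring
        have := n _ (h.mem2.1 (mul_mem (h.mem2.2 a) (inv_mem (h.mem2.2 b)))) z3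
        rw [h.d14, z2, z3] at this
        exact ⟨by rw [(e4 h e2 a.toK4).2.1, (e4 h e2 b.toK4).2.1], w, by linear_combination this, e'⟩
    rw [Set.ncard_prod, h.cF] at i1
    have := q1.trans (i1.trans (Nat.mul_le_mul (Nat.mul_le_mul_right _ h.sk) (i2.trans (Nat.mul_le_mul_left _ i3))))
    rw [← pow_succ', ← pow_add, ← pow_add] at this
    exact absurd (h.no this) (by norm_num)
  push Not at i
  have z : ∀ g, K2 ρ g → ρ g 1 2 = 0 ∧ ρ g 1 3 = 0 ∧ ρ g 1 4 = 0 := fun g a =>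
    ⟨(e4 h e2 a.toK4).2.1, i g a, n g a (i g a)⟩
  have i1 := j1' h z
  obtain ⟨b, a, b3, b4, b5⟩ : ∃ b, K3 ρ b ∧ ρ b 2 3 = 0 ∧ ρ b 2 4 = 0 ∧ ρ b 2 5 ≠ 0 := by
    by_contra! m
    have w : ∀ g, K3 ρ g → ρ g 2 3 = 0 ∧ ρ g 2 4 = 0 := fun g a => by
      by_contra y
      obtain ⟨b, c1, c2, c3, c4⟩ := h.nc2 a (not_and_or.1 y) 1
      exact one_ne_zero (c4.symm.trans (m b c1 c2 c3))
    have i2 := h.i2 (fun _ => ()) (S := Set.univ) Set.finite_univ (fun _ _ => trivial) fun g k a b _ =>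
      ⟨by rw [(w g a).1, (w k b).1], by rw [(w g a).2, (w k b).2], by
        rw [m g a (w g a).1 (w g a).2, m k b (w k b).1 (w k b).2]⟩
    rw [Set.ncard_univ, Nat.card_unique, one_mul] at i2
    have := q1.trans (i1.trans (Nat.mul_le_mul_left _ (i2.trans h.j3)))
    rw [← pow_add] at this
    exact absurd (h.no this) (by norm_num)
  obtain ⟨f1, f2, f3⟩ := e4 h e2 a.toK4
  have c : ∀ g, K2 ρ ⁅b, g⁆ := fun g => by
    have e : ρ ⁅b, g⁆ 2 4 = 0 := by simp [h.c24, b3, a.h34]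
    exact ⟨h.n3 a g, h.c23 b g, e, by rw [h.c25, e]; simp [b3, b4, a.h35, a.h45]⟩
  have cn : ∀ g, Cn ρ ⁅b, g⁆ (ρ b 1 3 * ρ g 3 5 + ρ b 1 4 * ρ g 4 5 + σ (ρ g 4 5) * ρ b 2 5) 0 := fun g =>
    ⟨(c g).1, (z _ (c g)).1, (z _ (c g)).2.1, (z _ (c g)).2.2, (c g).h23, (c g).h24, by
      rw [h.c15, (z _ (c g)).2.1, (z _ (c g)).2.2, f2, a.h35, a.h45, e2.2.1 g]; ring, (c g).h25⟩
  have b13 : ρ b 1 3 = 0 := by_contra fun n0 => by
    have t : ∀ g, ρ g 3 4 = 0 := fun g => by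
      have := (z _ (c g)).2.2
      rw [h.c14, (z _ (c g)).2.1, f2, b4, a.h34] at this
      simpa [n0] using this
    have k : ∀ g, ρ b 4 6 * ρ g 2 3 = ρ g 4 5 * ρ b 1 3 ∧ ρ b 4 6 * ρ g 2 4 =
        ρ b 1 3 * ρ g 3 5 + 2 * ρ b 1 4 * ρ g 4 5 + σ (ρ g 4 5) * ρ b 2 5 := fun g => by
      have e := h.bx t0 e1 (cn g)
      constructor
      · have := h.c03 b g
        rw [e.h03, e.h02, f1, f3, b3, e1 g] at this
        linear_combination -this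
      · have := h.c04 b g
        rw [e.h04, e.h03, e.h02, f1, f3, b4, a.h34, e1 g, t g] at this
        linear_combination -this
    have p0 : ρ b 4 6 ≠ 0 := fun y => n0 (by simpa [y, a1] using (k g1).1.symm)
    have i3 := j3' h fun g _ => t g
    have i2 := j2' h fun g a => ⟨by simpa [p0, a.h45] using (k g).1, by simpa [p0, a.h45, a.h35] using (k g).2⟩
    have := q1.trans (i1.trans (Nat.mul_le_mul_left _ (i2.trans (Nat.mul_le_mul_left _ i3))))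
    rw [← pow_add, ← pow_add] at this
    exact absurd (h.no this) (by norm_num)
  have k : ∀ g, K4 ρ g → ρ g 4 6 = ρ g 2 5 * (ρ b 4 6 / ρ b 2 5) + ρ g 3 5 * (ρ b 0 3 / ρ b 2 5) := fun g d => by
    have e := cn g
    rw [b13, d.h45, map_zero, zero_mul, mul_zero, zero_mul, add_zero, add_zero] at e
    have y := h.k10 t0 ⟨c g, e.h12, e.h13, e.h14, e.h15⟩
    have := h.c05 b g
    rw [y.h02, y.h03, y.h04, y.h05, f1, f3, a.h35, a.h45, d.h45, (e4 h e2 d).1, (e4 h e2 d).2.2] at this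
    field_simp
    linear_combination this
  have w1 : ρ b 4 6 / ρ b 2 5 = 0 := sk0 h.toFD fun x => by
    obtain ⟨g, -, -, g2, g3, g4⟩ := h.tr 0 0 x 0 0
    have := ps h ⟨g4⟩
    rwa [k g ⟨g4⟩, g2, g3, zero_mul, add_zero] at this
  have w2 : ρ b 0 3 / ρ b 2 5 = 0 := sk0 h.toFD fun x => by
    obtain ⟨g, -, -, g2, g3, g4⟩ := h.tr 0 0 0 x 0
    have := ps h ⟨g4⟩
    rwa [k g ⟨g4⟩, g2, g3, zero_mul, zero_add] at this
  obtain ⟨g, g4, g6⟩ := h.hz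
  exact g6 (by rw [k g ⟨g4⟩, w1, w2]; ring)

end H19.PG
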