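/-
S5855, chunk PG: C1 (see notes/PG.md).
-/
import Cfsg.Agent.H19.PG1

set_option autoImplicit false
set_option linter.unusedSectionVars false
set_option linter.unusedVariables false
set_option linter.unusedSimpArgs false

open Module H4.PG
open scoped commutatorElement
namespace H19.PG

variable {F : Type*} [Field F] [Fintype F] {σ : F →+* F} {q : ℕ}
variable {G : Type*} [Group G] [Finite G] {ρ : G →* Matrix (Fin 7) (Fin 7) F}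

theorem c1 (h : Md σ q ρ) : C1 σ ρ := fun t0 e2 fx s b s3 => by_contra fun x0 => by
  have e1 := e2.1
  have af := h.nc1 b (.inr (.inr x0))
  obtain ⟨g1, -, -, -, -, a1⟩ := h.tr 0 0 0 0 1
  obtain ⟨f1, f2, f3⟩ := e4 h e2 b.toK4
  have z3 : ∀ g, ρ ⁅s, g⁆ 1 3 = 0 := fun g => by simp [h.c13, f2, b.h23]
  have z4 : ∀ g, ρ ⁅s, g⁆ 1 4 = 0 := fun g => by rw [h.c14, z3]; simp [f2, s3, b.h24, b.h34]
  have cn : ∀ g, Cn ρ ⁅s, g⁆ (ρ s 1 4 * ρ g 4 5) 0 := fun g =>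
    ⟨(h.n2 b g).1, h.c12 s g, z3 g, z4 g, (h.n2 b g).h23, (h.n2 b g).h24, by
      rw [h.c15, z3, z4, f2, s3, b.h25, b.h35, b.h45]; ring, (h.n2 b g).h25⟩
  have k1 : ∀ g, K4 ρ g → K1 ρ ⁅s, g⁆ := fun g a =>
    ⟨h.n2 b g, h.c12 s g, z3 g, z4 g, by rw [(cn g).h15, a.h45, mul_zero]⟩
  have k5 : ∀ g, K4 ρ g → ρ s 4 6 * ρ g 2 5 + ρ s 0 3 * ρ g 3 5 = 0 := fun g a => by
    have y := h.k10 t0 (k1 g a)
    have := h.c05 s g
    rw [y.h02, y.h03, y.h04, y.h05, f1, f3, b.h25, b.h35, b.h45, a.h45, (e4 h e2 a).1] at this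
    linear_combination -this
  have s6 : ρ s 4 6 = 0 := by
    obtain ⟨g, -, -, g2, g3, g4⟩ := h.tr 0 0 1 0 0
    simpa [g2, g3] using k5 g ⟨g4⟩
  have s03 : ρ s 0 3 = 0 := by
    obtain ⟨g, -, -, g2, g3, g4⟩ := h.tr 0 0 0 1 0
    simpa [g2, g3] using k5 g ⟨g4⟩
  have two : (2 : F) = 0 := by
    have e := h.bx t0 e1 (cn g1)
    have := h.c04 s g1
    rw [e.h04, e.h03, e.h02, f1, f3, s6, s03, b.h24, b.h34, e1 g1, a1] at this
    exact (mul_eq_zero.1 (show 2 * ρ s 1 4 = 0 by linear_combination this)).resolve_right x0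
  have s5 := z56 h b.toK4
  -- the entry `23`
  have k23 : ∀ g, ρ g 2 3 * ρ s 3 6 = ρ s 1 4 * ρ g 4 5 := fun g => by
    have c := cn g
    have c36 : ρ ⁅s, g⁆ 3 6 = 0 := by rw [h.c36, c.h35, b.h34, b.h35, s6, s5]; ring
    have c46 : ρ ⁅s, g⁆ 4 6 = 0 := by rw [h.c46, b.h45, s5]; ring
    have y := h.k10 t0 (cn1 h c g1)
    have w := h.c16 ⁅s, g⁆ g1
    rw [(c6 h t0 e1 fx af (cn1 h c g1)).2.1, y.h13, y.h14, y.h15, c.h12, c.h13, c.h14, c.h15, c36, c46, h.c56, h.u1 g1,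
      e2.2.1 g1, a1, map_one] at w
    have := h.c26 s g
    rw [c.h24, c.h25, b.h23, b.h24, b.h25, s6, s5] at this
    linear_combination this + w - ρ s 1 4 * ρ g 4 5 * two
  have n36 : ρ s 3 6 ≠ 0 := fun z => x0 (by simpa [z, a1] using (k23 g1).symm)
  obtain ⟨κ, hκ⟩ : ∃ κ, κ = ρ s 1 4 / ρ s 3 6 := ⟨_, rfl⟩
  have κ0 : κ ≠ 0 := hκ ▸ div_ne_zero x0 n36
  have g23 : ∀ g, ρ g 2 3 = κ * ρ g 4 5 := fun g => by
    rw [hκ]; field_simp; linear_combination k23 g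
  have g13 : ∀ g, K4 ρ g → ρ g 1 3 = κ * ρ g 4 6 := fun g a => by
    have y := h.k10 t0 (k1 g a)
    have w := h.c16 s g
    rw [(c6 h t0 e1 fx af (k1 g a)).2.1, y.h13, y.h14, y.h15, f2, s3, s6, s5, z56 h a, (e4 h e2 a).2.1] at w
    rw [hκ]; field_simp; linear_combination w
  have z23 : ∀ g, K4 ρ g → ρ g 2 3 = 0 := fun g a => by rw [g23, a.h45, mul_zero]
  -- the `b`-lemma
  have bl : ∀ c, K3 ρ c → ρ c 2 4 = 0 → ρ c 4 6 = 0 → ρ c 2 5 = 0 := fun c a c4 c6 => by_contra fun c5 => by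
    obtain ⟨d1, d2, d3⟩ := e4 h e2 a.toK4
    have k : ∀ g, K4 ρ g → ρ g 4 6 = ρ g 3 5 * (ρ c 0 3 / ρ c 2 5) := fun g d => by
      have y24 : ρ ⁅c, g⁆ 2 4 = 0 := by simp [h.c24, z23 c a.toK4, a.h34]
      have y13 : ρ ⁅c, g⁆ 1 3 = 0 := by simp [h.c13, d2, z23 c a.toK4]
      have y14 : ρ ⁅c, g⁆ 1 4 = 0 := by rw [h.c14, y13, d2, g13 c a.toK4, c6, c4, a.h34]; ring
      have y := h.k10 t0 ⟨⟨h.n3 a g, h.c23 c g, y24, by rw [h.c25, y24, z23 c a.toK4, c4, a.h35, a.h45]; ring⟩,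
        h.c12 c g, y13, y14, by
          rw [h.c15, y13, y14, d2, g13 c a.toK4, c6, a.h35, a.h45, d.h45, (e4 h e2 d).2.1]; ring⟩
      have := h.c05 c g
      rw [y.h02, y.h03, y.h04, y.h05, d1, d3, c6, a.h35, a.h45, d.h45, (e4 h e2 d).1, (e4 h e2 d).2.2] at this
      field_simp
      linear_combination this
    have w : ρ c 0 3 / ρ c 2 5 = 0 := sk0 h.toFD fun x => by
      obtain ⟨g, -, -, -, g3, g4⟩ := h.tr 0 0 0 x 0
      have := ps h ⟨g4⟩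
      rwa [k g ⟨g4⟩, g3] at this
    obtain ⟨g, g4, g6⟩ := h.hz
    exact g6 (by rw [k g ⟨g4⟩, w, mul_zero])
  have y46 : ∀ g k, K4 ρ g → ρ ⁅g, k⁆ 4 6 = 0 := fun g k a => by rw [h.c46, a.h45, z56 h a]; ring
  have z24 : ∀ g, K3 ρ g → ρ g 2 4 = 0 := fun g a => by
    have y24 : ρ ⁅g, g1⁆ 2 4 = 0 := by simp [h.c24, z23 g a.toK4, a.h34]
    have := bl _ (h.n3 a g1) y24 (y46 g g1 a.toK4)
    rw [h.c25, y24, z23 g a.toK4, a.h35, a.h45, a1] at this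
    linear_combination this
  -- counting
  obtain ⟨r, ra, rt⟩ : ∃ r, K4 ρ r ∧ ρ r 3 4 ≠ 0 := by
    by_contra! m
    have i3 := j3' h m
    have i1 := idx (H' := h.S1) (H := h.S3) (fun _ a => a.1.1) (fun g => (ρ g 4 6, ρ g 1 4, ρ g 1 5))
      (S := {c | c + σ c = 0} ×ˢ Set.univ) (Set.toFinite _) (fun g a => ⟨ps h (h.mem3.1 a).toK4, trivial⟩)
      fun g a k b e => by
        have c := h.mem3.1 (mul_mem a (inv_mem b))
        obtain ⟨e, e'⟩ := Prod.mk.inj e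
        obtain ⟨e', e''⟩ := Prod.mk.inj e'
        have c6 : ρ (g * k⁻¹) 4 6 = 0 := by rw [h.d46, c.h45, e]; ring
        have c3 : ρ (g * k⁻¹) 1 3 = 0 := by rw [g13 _ c.toK4, c6, mul_zero]
        have c2 := (e4 h e2 c.toK4).2.1
        have c4 : ρ (g * k⁻¹) 1 4 = 0 := by rw [h.d14, c2, c3, e']; ring
        exact h.mem1.2 ⟨⟨c, z23 _ c.toK4, z24 _ c, bl _ c (z24 _ c) c6⟩, c2, c3, c4, by
          rw [h.d15, c2, c3, c4, e'']; ring⟩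
    rw [Set.ncard_prod, h.cF2] at i1
    have := (j1 h t0).trans (i1.trans (Nat.mul_le_mul (Nat.mul_le_mul_right _ h.sk) i3))
    rw [← pow_succ', ← pow_add] at this
    exact absurd (h.no this) (by norm_num)
  obtain ⟨k, -, -, -, -, ka⟩ := h.tr 0 0 0 0 (ρ r 3 4)⁻¹
  obtain ⟨r1, r2, r3⟩ := e4 h e2 ra
  have u4 := h.n4 ra k
  have u6 := y46 r k ra
  have u35 : ρ ⁅r, k⁆ 3 5 = 1 := by rw [h.c35, ra.h45, ka]; field_simp; ring
  have u03 : ρ ⁅r, k⁆ 0 3 = 0 := by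
    rw [h.c03, (e4 h e2 u4).2.2, u6, r1, r3, g23 k, g13 r ra, z23 r ra, e1 k]; ring
  have z03 : ∀ g, K4 ρ g → ρ g 4 6 = 0 → ρ g 0 3 = 0 := fun g a g6 => by
    obtain ⟨d1, d2, d3⟩ := e4 h e2 a
    obtain ⟨v1, v2, v3⟩ := e4 h e2 u4
    have y24 : ρ ⁅g, ⁅r, k⁆⁆ 2 4 = 0 := by rw [h.c24, z23 g a, h.c23]; ring
    have y13 : ρ ⁅g, ⁅r, k⁆⁆ 1 3 = 0 := by rw [h.c13, d2, v2]; ring
    have y14 : ρ ⁅g, ⁅r, k⁆⁆ 1 4 = 0 := by rw [h.c14, y13, d2, v2, g13 g a, g13 _ u4, g6, u6]; ring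
    have y := h.k10 t0 ⟨⟨⟨h.n4 a _, h.c34 _ _, by rw [h.c35, a.h45, u4.h45]; ring⟩, h.c23 _ _, y24, by
      rw [h.c25, y24, z23 g a, h.c23, a.h45, u4.h45]; ring⟩, h.c12 _ _, y13, y14, by
        rw [h.c15, y13, y14, d2, v2, g13 g a, g13 _ u4, g6, u6, a.h45, u4.h45]; ring⟩
    have := h.c05 g ⁅r, k⁆
    rw [y.h02, y.h03, y.h04, y.h05, d1, d3, v1, v3, g6, u6, u35, u03, a.h45, u4.h45] at this
    linear_combination -this
  have w03 : ∀ g k, K4 ρ g → K4 ρ k → ρ g 4 6 = ρ k 4 6 → ρ g 0 3 = ρ k 0 3 := fun g k a b e => by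
    have c := h.mem4.1 (mul_mem (h.mem4.2 a) (inv_mem (h.mem4.2 b)))
    have c6 : ρ (g * k⁻¹) 4 6 = 0 := by rw [h.d46, c.h45, e]; ring
    have := z03 _ c c6
    rw [h.d03, (e4 h e2 c).1, (e4 h e2 c).2.2, c6] at this
    linear_combination this
  -- the quadratic function
  obtain ⟨-, e12, c, e02⟩ := e2
  obtain ⟨Q, hQ⟩ : ∃ Q : G → F, ∀ g, Q g = ρ g 1 3 + κ * ρ g 4 6 + κ * c * σ (ρ g 4 5) := ⟨_, fun _ => rfl⟩
  have Q4 : ∀ g, K4 ρ g → Q g = 0 := fun g a => by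
    rw [hQ, g13 g a, a.h45, map_zero]; linear_combination κ * ρ g 4 6 * two
  have Qm : ∀ g k, Q (g * k) = Q g + Q k - κ * (σ (ρ g 4 5) * ρ k 4 5 + ρ g 4 5 * σ (ρ k 4 5)) := fun g k => by
    rw [hQ, hQ, hQ, h.m13, h.m46, h.m45, map_add, e12, g23 k, h.u1]; ring
  have s4 : ∀ g, K4 ρ (g * g) := fun g => ⟨by rw [h.m45]; linear_combination ρ g 4 5 * two⟩
  have s46 : ∀ g, ρ (g * g) 4 6 = -(ρ g 4 5 * σ (ρ g 4 5)) := fun g => by
    rw [h.m46, h.u1]; linear_combination ρ g 4 6 * two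
  have s0 : ∀ g, ρ (g * g) 0 3 = ρ g 4 5 * Q g := fun g => by
    rw [h.m03, hQ, e1 g, e02 g, g23 g]
    linear_combination (ρ g 0 3 - κ * c * σ (ρ g 4 5) * ρ g 4 5) * two
  obtain ⟨l, hl⟩ := h.ex
  have l0 : l ≠ 0 := fun z => hl (by rw [z, map_zero])
  have l1 : σ l ≠ 0 := (map_ne_zero σ).2 l0
  obtain ⟨ζ, hζ⟩ : ∃ ζ, ζ = l / σ l := ⟨_, rfl⟩
  have zz : ζ * σ ζ = 1 := by rw [hζ, map_div₀, h.ss]; field_simp
  have Qz : ∀ g k, ρ k 4 5 = ζ * ρ g 4 5 → ζ * Q k = Q g := fun g k e => by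
    by_cases a : ρ g 4 5 = 0
    · rw [Q4 g ⟨a⟩, Q4 k ⟨by rw [e, a, mul_zero]⟩, mul_zero]
    have := w03 _ _ (s4 k) (s4 g) (by
      rw [s46, s46, e, map_mul]; linear_combination -(ρ g 4 5 * σ (ρ g 4 5)) * zz)
    rw [s0, s0, e] at this
    exact mul_left_cancel₀ a (by linear_combination this)
  obtain ⟨g2, -, -, -, -, a2⟩ := h.tr 0 0 0 0 l
  obtain ⟨g3, -, -, -, -, a3⟩ := h.tr 0 0 0 0 ζ
  obtain ⟨g4, -, -, -, -, a4⟩ := h.tr 0 0 0 0 (ζ * l)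
  have p1 := Qz g1 g3 (by rw [a3, a1, mul_one])
  have p2 := Qz g2 g4 (by rw [a4, a2])
  have p3 := Qz (g1 * g2) (g3 * g4) (by rw [h.m45, h.m45, a1, a2, a3, a4]; ring)
  rw [Qm, Qm, a1, a2, a3, a4, map_mul, map_one] at p3
  have p4 : κ * ((l + σ l) * (ζ - 1)) = 0 := by
    linear_combination p1 + p2 - p3 - κ * ζ * (l + σ l) * zz
  rcases mul_eq_zero.1 ((mul_eq_zero.1 p4).resolve_left κ0) with p | p
  · exact hl (by linear_combination p - l * two)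
  · rw [hζ, sub_eq_zero, div_eq_one_iff_eq l1] at p
    exact hl p.symm

end H19.PG
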