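/-
S5855, chunk PG: P3B and S1 (see notes/PG.md).
-/
import Cfsg.Agent.H19.PG1

set_option autoImplicit false
set_option linter.unusedSectionVars false
set_option linter.unusedVariables false
set_option linter.unusedSimpArgs false

open Module H4.PG
open scoped commutatorElement
namespace H19.PG

variable {F : Type*} [Field F] [Fintype F] {σ : F →+* F} {q : ℕ}
variable {G : Type*} [Group G] [Finite G] {ρ : G →* Matrix (Fin 7) (Fin 7) F}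

/-- scattered subgroups are small -/
theorem sq {V : Type*} [AddCommGroup V] [Module F V] [Finite V] {l : F} (hl : σ l ≠ l) (X : AddSubgroup V)
    (h : ∀ x ∈ X, ∀ l : F, l • x ∈ X → σ l = l ∨ x = 0) {n : ℕ} (hn : Nat.card V = n ^ 2) : Nat.card X ≤ n := by
  refine (Nat.pow_le_pow_iff_left two_ne_zero).1 ?_
  rw [← hn, _root_.sq, ← Nat.card_prod]
  refine Nat.card_le_card_of_injective (fun x => x.1.1 + l • x.2.1) fun x y e => ?_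
  have e2 : x.2.1 - y.2.1 = 0 := (h _ (sub_mem x.2.2 y.2.2) l (by
    rw [show l • (x.2.1 - y.2.1) = y.1.1 - x.1.1 by linear_combination (norm := module) e]
    exact sub_mem y.1.2 x.1.2)).resolve_left hl
  rw [sub_eq_zero] at e2
  exact Prod.ext (Subtype.ext (by simpa [e2] using e)) (Subtype.ext e2)

theorem lt1 {a b n : ℕ} (hn : 0 < n) (hb : 0 < b) (e : n * b ≤ (n - 1) * b) : False := by
  have := Nat.le_of_mul_le_mul_right e hb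
  omega

theorem cmp {α : Type*} [Finite α] (x : α) : ({x}ᶜ : Set α).ncard = (Set.univ : Set α).ncard - 1 := by
  rw [Set.compl_eq_univ_sdiff, Set.ncard_sdiff (Set.subset_univ _), Set.ncard_singleton]

/-- all constants occur on the third row -/
theorem allc (h : Md σ q ρ) (i : q ^ 8 ≤ h.S2.index) (μ : F) : ∃ b, K3 ρ b ∧ ρ b 2 3 = 0 ∧ ρ b 2 4 = 0 ∧ ρ b 2 5 = μ := by
  by_contra m
  have w : ∀ g, K3 ρ g → ρ g 2 3 = 0 ∧ ρ g 2 4 = 0 := fun g a => by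
    by_contra y
    exact m (h.nc2 a (not_and_or.1 y) μ)
  have i2 := h.i2 (fun g => ρ g 2 5) (S := {μ}ᶜ) (Set.toFinite _) (fun g a e => m ⟨g, a, (w g a).1, (w g a).2, e⟩)
    fun g k a b e => ⟨by rw [(w g a).1, (w k b).1], by rw [(w g a).2, (w k b).2], e⟩
  rw [cmp, h.cF] at i2
  have q0 : 0 < q := by linarith [h.q2]
  exact lt1 (a := 0) (pow_pos q0 2) (pow_pos q0 6) (by
    rw [← pow_add]; exact i.trans (i2.trans (Nat.mul_le_mul_left _ h.j3)))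

/-- commutators with constants on the third row -/
theorem ck2 (h : Md σ q ρ) {b : G} (a : K3 ρ b) (b3 : ρ b 2 3 = 0) (b4 : ρ b 2 4 = 0) (g : G) : K2 ρ ⁅b, g⁆ := by
  have e : ρ ⁅b, g⁆ 2 4 = 0 := by simp [h.c24, b3, a.h34]
  exact ⟨h.n3 a g, h.c23 b g, e, by rw [h.c25, e]; simp [b3, b4, a.h35, a.h45]⟩

theorem p3b (h : Md σ q ρ) : P3B q ρ := fun pp z1 z2 pv => by
  obtain ⟨⟨g02, n02⟩, ⟨g23, n23⟩, ⟨g34, n34⟩⟩ : nz ρ 0 2 ∧ nz ρ 2 3 ∧ nz ρ 3 4 := by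
    rcases h.nk with ⟨⟨g, n⟩, -⟩ | ⟨⟨g, n⟩, -⟩ | ⟨⟨g, n⟩, -⟩ | ⟨⟨g, n⟩, -⟩ | n
    exacts [absurd (z1 g) n, absurd (z2 g) n, absurd (z1 g) n, absurd (z1 g) n, n]
  have tr := h.k2 z1
  obtain ⟨l, hl⟩ := h.ex
  have sc : ∀ t s l, K2 ρ t → K2 ρ s → ρ s 0 5 = l * ρ t 0 5 → ρ s 1 5 = l * ρ t 1 5 → σ l = l ∨ K0 ρ t :=
    fun t s l a b e e' => h.sc t s l (tr t a) (tr s b) e e' (by simp [a.h25, b.h25]) (by simp [a.h35, b.h35])
      (by simp [a.h45, b.h45])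
  have ad : ∀ g ∈ h.S2, ∀ k ∈ h.S2, (ρ (g * k) 0 5, ρ (g * k) 1 5) = (ρ g 0 5, ρ g 1 5) + (ρ k 0 5, ρ k 1 5) :=
    fun g a k b => by
      have t := tr g (h.mem2.1 a)
      simp [h.m05, h.m15, t.h01, t.h02, t.h03, t.h04, t.h12, t.h13, t.h14]
  let X : AddSubgroup (F × F) :=
    { carrier := {x | ∃ g ∈ h.S2, (ρ g 0 5, ρ g 1 5) = x}
      zero_mem' := ⟨1, one_mem _, by simp [h.o 0 5, h.o 1 5, -map_one]⟩
      add_mem' := by rintro _ _ ⟨g, a, rfl⟩ ⟨k, b, rfl⟩; exact ⟨g * k, mul_mem a b, ad g a k b⟩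
      neg_mem' := by
        rintro _ ⟨g, a, rfl⟩
        refine ⟨g⁻¹, inv_mem a, eq_neg_of_add_eq_zero_right ?_⟩
        rw [← ad g a _ (inv_mem a)]; simp [h.o 0 5, h.o 1 5, -map_one] }
  have hX : Nat.card X ≤ q ^ 2 := sq hl X (by
    rintro _ ⟨g, a, rfl⟩ l ⟨k, b, e⟩
    obtain ⟨e, e'⟩ := Prod.mk.inj e
    exact (sc g k l (h.mem2.1 a) (h.mem2.1 b) e e').imp_right fun c => by simp [c.h05, c.h15]) (by
      rw [Nat.card_prod, Nat.card_eq_fintype_card, h.hF]; ring)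
  have i0 := idx (H' := h.S0) (H := h.S2) (fun _ a => a.1.1) (fun g => (ρ g 0 5, ρ g 1 5)) (S := X) (Set.toFinite _)
    (fun g a => ⟨g, a, rfl⟩) fun g a k b e => by
      have c := h.mem2.1 (mul_mem a (inv_mem b))
      have t := tr _ c
      obtain ⟨e, e'⟩ := Prod.mk.inj e
      exact h.mem0.2 ⟨⟨c, t.h12, t.h13, t.h14, by rw [h.d15, t.h12, t.h13, t.h14, e']; ring⟩, t.h01, t.h02, t.h03, t.h04,
        by rw [h.d05, t.h01, t.h02, t.h03, t.h04, e]; ring⟩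
  have i2 : q ^ 8 ≤ h.S2.index := Nat.le_of_mul_le_mul_left (c := q ^ 2) (by
    rw [← pow_add]; exact h.i0.trans (i0.trans (Nat.mul_le_mul_right _ hX))) (pow_pos (by linarith [h.q2]) 2)
  obtain ⟨g, k, m, e1, e2, e3, e4, e5⟩ := h.ip pp (ρ · 4 5) (ρ · 0 2) h.d45 (fun g k => by rw [h.d02, z1]; ring)
    (fun c => by obtain ⟨g, -, -, -, -, e⟩ := h.tr 0 0 0 0 c; exact ⟨g, e⟩) pv
  have key : ∀ μ, ∃ b, ∀ g, K2 ρ ⁅b, g⁆ ∧ ρ ⁅b, g⁆ 0 5 = -(μ * ρ g 0 2) ∧ ρ ⁅b, g⁆ 1 5 = 0 := fun μ => by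
    obtain ⟨b, a, b3, b4, b5⟩ := allc h i2 μ
    have c := ck2 h a b3 b4
    have t := fun g => tr _ (c g)
    have b02 : ρ b 0 2 = 0 := by
      have := h.c03 b g23
      rw [(t _).h03, (t _).h02, z1, z1, b3] at this
      simpa [n23] using this.symm
    have b03 : ρ b 0 3 = 0 := by
      have := h.c04 b g34
      rw [(t _).h04, (t _).h03, (t _).h02, z1, z1, b02, b4, a.h34] at this
      simpa [n34] using this.symm
    have b13 : ρ b 1 3 = 0 := by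
      have := h.c14 b g34
      rw [(t _).h14, (t _).h13, z2, z2, a.h34] at this
      simpa [n34] using this.symm
    have c0 : ∀ g, ρ ⁅b, g⁆ 0 5 = ρ b 0 4 * ρ g 4 5 - μ * ρ g 0 2 := fun g => by
      rw [h.c05, (t _).h04, (t _).h03, (t _).h02, z1, z1, b02, b03, b5, a.h35, a.h45]; ring
    have c1 : ∀ g, ρ ⁅b, g⁆ 1 5 = ρ b 1 4 * ρ g 4 5 := fun g => by
      rw [h.c15, (t _).h14, (t _).h13, z2, z2, b13, a.h35, a.h45]; ring
    have y := (sc _ _ m (c g) (c k) (by rw [c0, c0, e1, e2, e4]; ring) (by rw [c1, c1, e4]; ring)).resolve_left e5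
    have y0 := y.h05
    have y1 := y.h15
    rw [c0, e1, mul_zero, sub_zero] at y0
    rw [c1] at y1
    exact ⟨b, fun g => ⟨c g, by rw [c0, (mul_eq_zero.1 y0).resolve_right e3]; ring, by
      rw [c1, (mul_eq_zero.1 y1).resolve_right e3, zero_mul]⟩⟩
  obtain ⟨b, hb⟩ := key 1
  obtain ⟨c, hc⟩ := key l
  have := ((sc _ _ l (hb g02).1 (hc g02).1 (by rw [(hb _).2.1, (hc _).2.1]; ring) (by
    rw [(hb _).2.2, (hc _).2.2, mul_zero])).resolve_left hl).h05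
  rw [(hb _).2.1] at this
  exact n02 (by simpa using this)

theorem s1 (h : Md σ q ρ) (la : LA ρ) : S1 ρ := fun t0 H => by
  rcases H with fx | z2
  · obtain ⟨b, x, a, x0⟩ : ∃ b x, Cn ρ b x 0 ∧ x ≠ 0 := by
      by_contra! m
      refine la fx fun g a => h.k10 t0 ?_
      have w : ρ g 1 2 = 0 ∧ ρ g 1 3 = 0 ∧ ρ g 1 4 = 0 := by
        by_contra y
        obtain ⟨b, c⟩ := h.nc1 a (by tauto) 1
        exact one_ne_zero (m b 1 c)
      exact ⟨a, w.1, w.2.1, w.2.2, m g _ ⟨a.1, w.1, w.2.1, w.2.2, a.h23, a.h24, rfl, a.h25⟩⟩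
    obtain ⟨k, n⟩ : nz ρ 1 2 := by
      by_contra y
      simp only [nz, not_exists, not_not] at y
      exact one_ne_zero (fx 1 0 0 fun g => by simp [y]).1
    have := h.c02 b k
    rw [(h.k10 t0 (cn1 h a k)).h02, a.h12] at this
    exact ⟨b, x, 0, a, .inl x0, by rw [show ρ b 0 1 = 0 by simpa [n] using this.symm]; ring, by simp⟩
  obtain ⟨⟨g, n⟩, ⟨r, n34⟩⟩ : (∃ g, ρ g 1 3 ≠ 0 ∨ ρ g 2 3 ≠ 0) ∧ nz ρ 3 4 := by
    rcases h.nk with ⟨-, ⟨g, n⟩, -⟩ | ⟨⟨g, n⟩, -⟩ | ⟨-, ⟨g, n⟩, -⟩ | ⟨-, ⟨g, n⟩, m⟩ | ⟨-, ⟨g, n⟩, m⟩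
    exacts [absurd (z2 g) n, absurd (z2 g) n, absurd (z2 g) n, ⟨⟨g, .inl n⟩, m⟩, ⟨⟨g, .inr n⟩, m⟩]
  have z3 : ∀ g k, ρ ⁅g, k⁆ 1 3 = 0 := fun g k => by rw [h.c13, z2, z2]; ring
  have k0 : ∀ b x y, Cn ρ b x y → ∀ g, K0 ρ ⁅b, g⁆ := fun b x y a g => by
    have z4 : ρ ⁅b, g⁆ 1 4 = 0 := by rw [h.c14, z3, z2, z2, a.h13, a.h34]; ring
    exact h.k10 t0 ⟨ck2 h a.1 a.h23 a.h24 g, z2 _, z3 _ _, z4, by
      rw [h.c15, z3, z4, z2, z2, a.h13, a.h14, a.h35, a.h45]; ring⟩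
  have k : ∀ s, K3 ρ s → ρ s 1 3 = 0 → ρ s 2 3 = 0 → (ρ s 1 4 ≠ 0 ∨ ρ s 2 4 ≠ 0) →
      ∃ b x y, Cn ρ b x y ∧ (x ≠ 0 ∨ y ≠ 0) ∧ ρ b 0 1 * x + ρ b 0 2 * y = 0 ∧ ∀ g, ρ g 1 2 * y = 0 := fun s a s1 s2 n => by
    obtain ⟨g, -, -, -, -, e⟩ := h.tr 0 0 0 0 1
    have z4 : ρ ⁅s, g⁆ 1 4 = 0 := by rw [h.c14, z3, z2, z2, s1, a.h34]; ring
    have z5 : ρ ⁅s, g⁆ 2 4 = 0 := by rw [h.c24, s2, a.h34]; ring
    have c : Cn ρ ⁅s, g⁆ (ρ s 1 4) (ρ s 2 4) := ⟨h.n3 a g, z2 _, z3 _ _, z4, h.c23 _ _, z5, by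
      rw [h.c15, z3, z4, z2, z2, s1, a.h35, a.h45, e]; ring, by rw [h.c25, z5, s2, a.h35, a.h45, e]; ring⟩
    have y := k0 _ _ _ c s
    have := h.c04 ⁅s, g⁆ s
    rw [y.h04, y.h03, y.h02, c.h14, c.h24, c.h34, a.h34] at this
    exact ⟨_, _, _, c, n, by linear_combination -this, fun g => by rw [z2, zero_mul]⟩
  by_cases i : ∀ s, K3 ρ s → ρ s 1 3 = 0 ∧ ρ s 2 3 = 0
  swap
  · push Not at i
    obtain ⟨s, a, i⟩ := i
    refine k _ (h.n3 a r) (z3 _ _) (h.c23 _ _) ?_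
    rw [h.c14, h.c24, z3, z2, z2, a.h34]
    by_cases y : ρ s 1 3 = 0
    · exact .inr (by simpa [n34] using i y)
    · exact .inl (by simpa [n34] using y)
  by_cases j : ∀ s, K3 ρ s → ρ s 1 4 = 0 ∧ ρ s 2 4 = 0
  swap
  · push Not at j
    obtain ⟨s, a, j⟩ := j
    exact k s a (i s a).1 (i s a).2 (by tauto)
  obtain ⟨b, a⟩ : ∃ b, Cn ρ b (ρ g 1 3) (ρ g 2 3) := by
    by_contra! m
    have i1 := idx (H' := h.S1) (H := h.S3) (fun _ a => a.1.1) (fun g => (ρ g 1 5, ρ g 2 5))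
      (S := {(ρ g 1 3, ρ g 2 3)}ᶜ) (Set.toFinite _) (fun s a e => by
        have a := h.mem3.1 a
        obtain ⟨e, e'⟩ := Prod.mk.inj e
        exact m s ⟨a, z2 _, (i s a).1, (j s a).1, (i s a).2, (j s a).2, e, e'⟩) fun s a t b e => by
        have c := h.mem3.1 (mul_mem a (inv_mem b))
        obtain ⟨e, e'⟩ := Prod.mk.inj e
        exact h.mem1.2 ⟨⟨c, (i _ c).2, (j _ c).2, by rw [h.d25, (i _ c).2, (j _ c).2, e']; ring⟩, z2 _, (i _ c).1,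
          (j _ c).1, by rw [h.d15, z2, (i _ c).1, (j _ c).1, e]; ring⟩
    rw [cmp, h.cF2] at i1
    have q0 : 0 < q := by linarith [h.q2]
    exact lt1 (a := 0) (pow_pos q0 4) (pow_pos q0 6) (by
      rw [← pow_add]; exact (j1 h t0).trans (i1.trans (Nat.mul_le_mul_left _ h.j3)))
  have y := k0 _ _ _ a g
  have := h.c03 b g
  rw [y.h03, y.h02, a.h13, a.h23] at this
  exact ⟨b, _, _, a, n, by linear_combination -this, fun g => by rw [z2, zero_mul]⟩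

end H19.PG
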