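/-
S5855, chunk PG: P3A (see notes/PG.md).
-/
import Cfsg.Agent.H19.PG3

set_option autoImplicit false
set_option linter.unusedSectionVars false
set_option linter.unusedVariables false
set_option linter.unusedSimpArgs false

open Module H4.PG
open scoped commutatorElement
namespace H19.PG

variable {F : Type*} [Field F] [Fintype F] {σ : F →+* F} {q : ℕ}
variable {G : Type*} [Group G] [Finite G] {ρ : G →* Matrix (Fin 7) (Fin 7) F}

theorem rc {a b : F} (h : σ a = a) (e : b = a) : σ b = b := by rw [e, h]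
theorem rn {a b : F} (h : σ a = a) (e : b = -a) : σ b = b := by rw [e, map_neg, h]

theorem lin2 {a b : F} (n : a ≠ 0 ∨ b ≠ 0) : ∃ c d : F, ∀ x y x' y' : F, a * x + b * y = a * x' + b * y' →
    c * x + d * y = c * x' + d * y' → x = x' ∧ y = y' := by
  rcases n with n | n
  · refine ⟨0, 1, fun x y x' y' e e' => ?_⟩
    have : y = y' := by simpa using e'
    exact ⟨mul_left_cancel₀ n (by linear_combination e - b * this), this⟩
  · refine ⟨1, 0, fun x y x' y' e e' => ?_⟩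
    have : x = x' := by simpa using e'
    exact ⟨this, mul_left_cancel₀ n (by linear_combination e - a * this)⟩

/-- the setting of `P3A` after the first reduction -/
structure PA (σ : F →+* F) (q : ℕ) (ρ : G →* Matrix (Fin 7) (Fin 7) F) (e : F) : Prop where
  pp : PP F q
  fx : FX2 ρ
  pv : Pv ρ 0 1
  e0 : e ≠ 0
  ge : ∃ g, ρ g 0 1 = e
  tr : ∀ g, K2 ρ g → Tr ρ g
  re : ∀ g, K2 ρ g → σ (ρ g 1 5 * e) = ρ g 1 5 * e

theorem pa0 (h : Md σ q ρ) (pp : PP F q) (t1 : T1 ρ) (fx1 : FX1 ρ) (fx : FX2 ρ) (pv : Pv ρ 0 1) :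
    ∃ e, PA σ q ρ e ∧ q ^ 8 ≤ h.S2.index := by
  obtain ⟨g0, e0⟩ : nz ρ 0 1 := by
    by_contra y
    simp only [nz, not_exists, not_not] at y
    exact one_ne_zero (fx1 1 0 0 0 fun g => by simp [y]).1
  obtain ⟨ε, hε⟩ := pv
  have k : ∀ b β, Cn ρ b β 0 → Tr ρ b ∧ σ (β * ρ g0 0 1) = β * ρ g0 0 1 := fun b β a => by
    have k : ∀ g, σ (ρ b 0 1 * ρ g 1 5 + ρ b 0 2 * ρ g 2 5 + ρ b 0 3 * ρ g 3 5 + ρ b 0 4 * ρ g 4 5 - ρ g 0 1 * β) =
        ρ b 0 1 * ρ g 1 5 + ρ b 0 2 * ρ g 2 5 + ρ b 0 3 * ρ g 3 5 + ρ b 0 4 * ρ g 4 5 - ρ g 0 1 * β := fun g => by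
      have c := cn1 h a g
      have t := h.k1 _ c
      have := h.ra t1 c
      rw [h.c05, t.h02, t.h03, t.h04, a.h15, a.h25, a.h35, a.h45] at this
      simpa using this
    have b1 : ρ b 0 1 = 0 := h.pr pp (ε := ε * β) fun c => by
      obtain ⟨g, -, k1, k2, k3, k4⟩ := h.tr 0 c 0 0 0
      obtain ⟨n, hn⟩ := hε g
      have := k g
      rw [k1, k2, k3, k4, hn] at this
      exact ⟨n, rc this (by ring)⟩
    have b2 : ρ b 0 2 = 0 := h.pr pp (ε := ε * β) fun c => by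
      obtain ⟨g, -, k1, k2, k3, k4⟩ := h.tr 0 0 c 0 0
      obtain ⟨n, hn⟩ := hε g
      have := k g
      rw [k1, k2, k3, k4, hn] at this
      exact ⟨n, rc this (by ring)⟩
    have b3 : ρ b 0 3 = 0 := h.pr pp (ε := ε * β) fun c => by
      obtain ⟨g, -, k1, k2, k3, k4⟩ := h.tr 0 0 0 c 0
      obtain ⟨n, hn⟩ := hε g
      have := k g
      rw [k1, k2, k3, k4, hn] at this
      exact ⟨n, rc this (by ring)⟩
    have b4 : ρ b 0 4 = 0 := h.pr pp (ε := ε * β) fun c => by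
      obtain ⟨g, -, k1, k2, k3, k4⟩ := h.tr 0 0 0 0 c
      obtain ⟨n, hn⟩ := hε g
      have := k g
      rw [k1, k2, k3, k4, hn] at this
      exact ⟨n, rc this (by ring)⟩
    refine ⟨⟨b1, b2, b3, b4, a.h12, a.h13, a.h14, a.h23, a.h24, a.h34⟩, ?_⟩
    have := k g0
    rw [b1, b2, b3, b4] at this
    simp only [zero_mul, add_zero, zero_sub, map_neg, neg_inj] at this
    rwa [mul_comm]
  have z : ∀ g, K2 ρ g → Cn ρ g (ρ g 1 5) 0 := fun g a => by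
    have w : ρ g 1 2 = 0 ∧ ρ g 1 3 = 0 ∧ ρ g 1 4 = 0 := by
      by_contra y
      exact e0 (h.re0 fun c => by obtain ⟨b, d⟩ := h.nc1 a (by tauto) c; exact (k b c d).2)
    exact ⟨a.1, w.1, w.2.1, w.2.2, a.h23, a.h24, rfl, a.h25⟩
  refine ⟨_, ⟨pp, fx, ⟨ε, hε⟩, e0, ⟨g0, rfl⟩, fun g a => (k g _ (z g a)).1, fun g a => (k g _ (z g a)).2⟩, ?_⟩
  have i1 := h.i1 (fun g => ρ g 1 5) (S := {c | σ (c * ρ g0 0 1) = c * ρ g0 0 1}) (Set.toFinite _)
    (fun g a => (k g _ (z g a)).2) fun g k a b e =>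
      ⟨by rw [(z g a).h12, (z k b).h12], by rw [(z g a).h13, (z k b).h13], by rw [(z g a).h14, (z k b).h14], e⟩
  exact Nat.le_of_mul_le_mul_left (c := q) (by
    rw [← pow_succ']; exact (h.i1' t1).trans (i1.trans (Nat.mul_le_mul_right _ (h.ln e0)))) (by linarith [h.q2])

theorem paA (h : Md σ q ρ) {e : F} (P : PA σ q ρ e) (ix : q ^ 8 ≤ h.S2.index) (z : ∀ g, ρ g 2 3 = 0) : False := by
  obtain ⟨g0, hg0⟩ := P.ge
  have z13 : ∀ g k, ρ ⁅g, k⁆ 1 3 = 0 := fun g k => by rw [h.c13, z, z]; ring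
  have z24 : ∀ g k, ρ ⁅g, k⁆ 2 4 = 0 := fun g k => by rw [h.c24, z, z]; ring
  have kb : ∀ b, K4 ρ b → ρ b 2 4 = 0 → ρ b 3 4 = 0 → ∀ g,
      σ ((ρ b 1 4 * ρ g 4 5 - (ρ g 1 2 * ρ b 2 5 + ρ g 1 3 * ρ b 3 5)) * e) =
        (ρ b 1 4 * ρ g 4 5 - (ρ g 1 2 * ρ b 2 5 + ρ g 1 3 * ρ b 3 5)) * e := fun b a b2 b3 => by
    have c : ∀ g, K2 ρ ⁅b, g⁆ := fun g => ⟨⟨h.n4 a g, h.c34 _ _, by rw [h.c35, b3, a.h45]; ring⟩, h.c23 _ _, z24 _ _, by
      rw [h.c25, z24, z, z, b2, a.h45]; ring⟩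
    have t := fun g => P.tr _ (c g)
    have k2 : ∀ g, ρ b 0 1 * ρ g 1 2 = ρ g 0 1 * ρ b 1 2 := fun g => by linear_combination (t g).h02 - h.c02 b g
    have k3 : ∀ g, ρ b 0 1 * ρ g 1 3 = ρ g 0 1 * ρ b 1 3 := fun g => by
      have := h.c03 b g
      rw [(t g).h03, (t g).h02, z, z] at this
      linear_combination -this
    have b1 : ρ b 0 1 = 0 := by_contra fun n => by
      have w := P.fx (ρ b 1 3) (-ρ b 1 2) 0 fun g => ⟨mul_left_cancel₀ n (by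
        linear_combination ρ b 1 3 * k2 g - ρ b 1 2 * k3 g), by simp [z], by simp⟩
      exact one_ne_zero (P.fx 1 0 0 fun g => ⟨mul_left_cancel₀ n (by
        linear_combination k2 g - ρ g 0 1 * w.2.1), by simp, by simp⟩).1
    have b12 : ρ b 1 2 = 0 := by simpa [b1, hg0, P.e0] using (k2 g0).symm
    have b13 : ρ b 1 3 = 0 := by simpa [b1, hg0, P.e0] using (k3 g0).symm
    intro g
    have := P.re _ (c g)
    rw [h.c15, (t g).h13, (t g).h14, b12, b13, a.h45] at this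
    simpa using this
  have cb : ∀ s g, K4 ρ s → ρ ⁅s, g⁆ 2 5 = ρ s 2 4 * ρ g 4 5 ∧ ρ ⁅s, g⁆ 3 5 = ρ s 3 4 * ρ g 4 5 := fun s g a =>
    ⟨by rw [h.c25, z24, z, z, a.h45]; ring, by rw [h.c35, a.h45]; ring⟩
  have ad : ∀ g ∈ h.S4, ∀ k ∈ h.S4, (ρ (g * k) 2 4, ρ (g * k) 3 4) = (ρ g 2 4, ρ g 3 4) + (ρ k 2 4, ρ k 3 4) :=
    fun g _ k _ => by simp [h.m24, h.m34, z]
  obtain ⟨B, hB⟩ : ∃ B : Subgroup G, ∀ g, g ∈ B ↔ g ∈ h.S4 ∧ ρ g 2 4 = 0 ∧ ρ g 3 4 = 0 :=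
    ⟨ks h.S4 (fun g => (ρ g 2 4, ρ g 3 4)) ad, fun g => by simp [mem_ks]⟩
  have iB : ∀ (φ : G → F) (S : Set F), (∀ g, K4 ρ g → φ g ∈ S) →
      (∀ g k, K4 ρ g → K4 ρ k → φ g = φ k → ρ g 2 4 = ρ k 2 4 ∧ ρ g 3 4 = ρ k 3 4) →
      B.index ≤ S.ncard * q ^ 2 := fun φ S mem inj =>
    (idx (H' := B) (H := h.S4) (fun g a => ((hB g).1 a).1) φ (Set.toFinite _) (fun g a => mem g (h.mem4.1 a))
      fun g a k b e => (hB _).2 ⟨mul_mem a (inv_mem b), by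
        have := inj g k (h.mem4.1 a) (h.mem4.1 b) e
        simp [h.d24, h.d34, z, this]⟩).trans (Nat.mul_le_mul_left _ h.i4)
  have iC : ∀ (φ : G → F × F) (S : Set (F × F)), (∀ g, K4 ρ g → ρ g 2 4 = 0 → ρ g 3 4 = 0 → φ g ∈ S) →
      (∀ g k, φ g = φ k → ρ g 2 5 = ρ k 2 5 ∧ ρ g 3 5 = ρ k 3 5) →
      h.S2.index ≤ S.ncard * B.index := fun φ S mem inj =>
    idx (H' := h.S2) (H := B) (fun g a => by
      have a := h.mem2.1 a
      exact (hB g).2 ⟨h.mem4.2 a.toK4, a.h24, a.h34⟩) φ (Set.toFinite _)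
      (fun g a => mem g (h.mem4.1 ((hB g).1 a).1) ((hB g).1 a).2.1 ((hB g).1 a).2.2) fun g a k b e => by
        obtain ⟨c, c2, c3⟩ := (hB _).1 (mul_mem a (inv_mem b))
        exact h.mem2.2 ⟨⟨h.mem4.1 c, c3, by rw [h.d35, c3, (inj g k e).2]; ring⟩, z _, c2, by
          rw [h.d25, c2, z, (inj g k e).1]; ring⟩
  have p0 : ∀ s, K4 ρ s → ρ s 1 2 = 0 ∧ ρ s 1 3 = 0 := fun s a => by
    by_contra y
    obtain ⟨c, d, l2⟩ := lin2 (not_and_or.1 y)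
    have i1 := iC (fun g => (ρ s 1 2 * ρ g 2 5 + ρ s 1 3 * ρ g 3 5, c * ρ g 2 5 + d * ρ g 3 5))
      ({c | σ (c * e) = c * e} ×ˢ Set.univ) (fun g b b2 b3 => ⟨by
        have := kb g b b2 b3 s
        rw [a.h45, mul_zero, zero_sub, neg_mul, map_neg, neg_inj] at this
        exact this, trivial⟩) fun g k e => l2 _ _ _ _ (Prod.mk.inj e).1 (Prod.mk.inj e).2
    have w : ∀ g, K4 ρ g → ρ s 1 2 * ρ g 2 4 + ρ s 1 3 * ρ g 3 4 = 0 := fun g b =>
      (mul_eq_zero.1 (h.re0 (a := (ρ s 1 2 * ρ g 2 4 + ρ s 1 3 * ρ g 3 4) * e) fun x => by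
        obtain ⟨k, -, -, -, -, k4⟩ := h.tr 0 0 0 0 (-x)
        have := kb _ (h.n4 b k) (z24 _ _) (h.c34 _ _) s
        rw [a.h45, (cb g k b).1, (cb g k b).2, k4] at this
        exact rc this (by ring))).resolve_right P.e0
    have i2 := iB (fun g => c * ρ g 2 4 + d * ρ g 3 4) Set.univ (fun _ _ => trivial)
      fun g k a b e => l2 _ _ _ _ (by rw [w g a, w k b]) e
    rw [Set.ncard_prod, h.cF] at i1
    rw [h.cF] at i2
    have := ix.trans (i1.trans (Nat.mul_le_mul (Nat.mul_le_mul_right _ (h.ln P.e0)) i2))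
    rw [← pow_succ', ← pow_add, ← pow_add] at this
    exact absurd (h.no this) (by norm_num)
  have kf : ∀ s, K4 ρ s → ∀ g k, σ (((ρ g 1 2 * ρ s 2 4 + ρ g 1 3 * ρ s 3 4) * ρ k 4 5 +
      (ρ k 1 2 * ρ s 2 4 + ρ k 1 3 * ρ s 3 4) * ρ g 4 5) * e) = ((ρ g 1 2 * ρ s 2 4 + ρ g 1 3 * ρ s 3 4) * ρ k 4 5 +
      (ρ k 1 2 * ρ s 2 4 + ρ k 1 3 * ρ s 3 4) * ρ g 4 5) * e := fun s a g k => by
    have := kb _ (h.n4 a g) (z24 _ _) (h.c34 _ _) k
    rw [(cb s g a).1, (cb s g a).2, h.c14, z13, (p0 s a).1, (p0 s a).2] at this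
    exact rn this (by ring)
  obtain ⟨g1, -, -, -, -, a1⟩ := h.tr 0 0 0 0 1
  have e2 : 2 * e ≠ 0 := mul_ne_zero (FD.p2 P.pp) P.e0
  obtain ⟨s, a, f1, n⟩ : ∃ s, K4 ρ s ∧ ρ g1 1 2 * ρ s 2 4 + ρ g1 1 3 * ρ s 3 4 = 0 ∧ ¬ (ρ s 2 4 = 0 ∧ ρ s 3 4 = 0) := by
    by_contra! m
    have i1 := iC (fun g => (ρ g 2 5, ρ g 3 5)) Set.univ (fun _ _ _ _ => trivial) fun g k e => Prod.mk.inj e
    have i2 := iB (fun s => ρ g1 1 2 * ρ s 2 4 + ρ g1 1 3 * ρ s 3 4) {c | σ (c * (2 * e)) = c * (2 * e)}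
      (fun s a => by
        have := kf s a g1 g1
        rw [a1] at this
        show σ _ = _
        exact rc this (by ring)) fun g k a b e => by
        have := m _ (h.mem4.1 (mul_mem (h.mem4.2 a) (inv_mem (h.mem4.2 b)))) (by
          rw [h.d24, h.d34, z]; linear_combination e)
        rw [h.d24, h.d34, z] at this
        exact ⟨by linear_combination this.1, by linear_combination this.2⟩
    rw [h.cF2] at i1
    have := ix.trans (i1.trans (Nat.mul_le_mul_left _ (i2.trans (Nat.mul_le_mul_right _ (h.ln e2)))))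
    rw [← pow_succ', ← pow_add] at this
    exact absurd (h.no this) (by norm_num)
  obtain ⟨f, hf⟩ : ∃ f : G → F, ∀ g, f g = ρ g 1 2 * ρ s 2 4 + ρ g 1 3 * ρ s 3 4 := ⟨_, fun _ => rfl⟩
  have f0 : ∀ g, σ (ρ g 4 5) ≠ ρ g 4 5 → f g = 0 := fun g y => by_contra fun w => y (by
    have r1 := kf s a g g1
    have r2 := kf s a g g
    rw [← hf, f1, a1, mul_one, zero_mul, add_zero] at r1
    rw [← hf, show (f g * ρ g 4 5 + f g * ρ g 4 5) * e = 2 * (f g * e) * ρ g 4 5 by ring, map_mul, map_mul, r1,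
      map_ofNat] at r2
    exact mul_left_cancel₀ (mul_ne_zero (FD.p2 P.pp) (mul_ne_zero w P.e0)) r2)
  obtain ⟨l, hl⟩ := h.ex
  obtain ⟨g2, -, -, -, -, a2⟩ := h.tr 0 0 0 0 l
  have f2 : ∀ g, f g = 0 := fun g => by
    by_cases y : σ (ρ g 4 5) = ρ g 4 5
    · have r1 := f0 g2 (by rwa [a2])
      have r2 := f0 (g * g2) (by rw [h.m45, a2, map_add, y]; exact fun w => hl (add_left_cancel w))
      rw [hf] at r1 r2 ⊢
      rw [h.m12, h.m13, z] at r2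
      linear_combination r2 - r1
    exact f0 g y
  have := P.fx (ρ s 2 4) (ρ s 3 4) 0 fun g => ⟨by rw [← hf, f2]; ring, by simp [z], by simp⟩
  exact n ⟨this.1, this.2.1⟩

theorem paB (h : Md σ q ρ) {e : F} (P : PA σ q ρ e) (ix : q ^ 8 ≤ h.S2.index) (n23 : nz ρ 2 3) : False := by
  obtain ⟨g0, hg0⟩ := P.ge
  obtain ⟨g23, n23⟩ := n23
  obtain ⟨g, n12⟩ : nz ρ 1 2 := by
    by_contra y
    simp only [nz, not_exists, not_not] at y
    exact one_ne_zero (P.fx 1 0 0 fun g => by simp [y]).1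
  have kb : ∀ b, K3 ρ b → ρ b 2 3 = 0 → ρ b 2 4 = 0 → ∀ k, ρ b 1 3 * ρ k 3 4 = 0 ∧ ρ b 0 2 * ρ k 2 3 = ρ k 0 1 * ρ b 1 3 ∧
      ρ b 0 2 * ρ k 2 4 + ρ b 0 3 * ρ k 3 4 = ρ k 0 1 * ρ b 1 4 ∧
      σ ((ρ b 1 3 * ρ k 3 5 + ρ b 1 4 * ρ k 4 5 - ρ k 1 2 * ρ b 2 5) * e) =
        (ρ b 1 3 * ρ k 3 5 + ρ b 1 4 * ρ k 4 5 - ρ k 1 2 * ρ b 2 5) * e := fun b a b3 b4 => by
    have c := ck2 h a b3 b4
    have t := fun k => P.tr _ (c k)
    have b12 : ρ b 1 2 = 0 := by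
      have := h.c13 b g23
      rw [(t _).h13, b3] at this
      simpa [n23] using this.symm
    have b01 : ρ b 0 1 = 0 := by
      have := h.c02 b g
      rw [(t _).h02, b12] at this
      simpa [n12] using this.symm
    refine fun k => ⟨?_, ?_, ?_, ?_⟩
    · have := h.c14 b k
      rw [(t _).h14, (t _).h13, b12, b4, a.h34] at this
      linear_combination -this
    · have := h.c03 b k
      rw [(t _).h03, (t _).h02, b01, b3] at this
      linear_combination -this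
    · have := h.c04 b k
      rw [(t _).h04, (t _).h03, (t _).h02, b01, b4, a.h34] at this
      linear_combination -this
    · have := P.re _ (c k)
      rw [h.c15, (t _).h14, (t _).h13, b12, a.h35, a.h45] at this
      exact rc this (by ring)
  have s12 : ∀ s, K3 ρ s → ρ s 1 2 = 0 := fun s a =>
    (mul_eq_zero.1 (h.re0 (a := ρ s 1 2 * e) fun μ => by
      obtain ⟨b, c, b3, b4, b5⟩ := allc h ix (-μ)
      have := (kb b c b3 b4 s).2.2.2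
      rw [a.h35, a.h45, b5] at this
      exact rc this (by ring))).resolve_right P.e0
  have e2 := FD.p2 P.pp
  by_cases t : ∀ k, ρ k 3 4 = 0
  · have c4 : ∀ s, K3 ρ s → ρ ⁅s, g⁆ 2 4 = 0 := fun s a => by rw [h.c24, t, t]; ring
    have c5 : ∀ s, K3 ρ s → ρ ⁅s, g⁆ 2 5 = ρ s 2 3 * ρ g 3 5 + ρ s 2 4 * ρ g 4 5 := fun s a => by
      rw [h.c25, c4 s a, a.h35, a.h45]; ring
    have c3 : ∀ s, K3 ρ s → ρ ⁅s, g⁆ 1 3 = -(ρ g 1 2 * ρ s 2 3) := fun s a => by rw [h.c13, s12 s a]; ring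
    have c1 : ∀ s, K3 ρ s → ρ ⁅s, g⁆ 1 4 = -(ρ g 1 2 * ρ s 2 4) := fun s a => by rw [h.c14, s12 s a, t, t, t]; ring
    have i2 := h.i2 (fun s => (ρ s 2 3 * ρ g 3 5 + ρ s 2 4 * ρ g 4 5, ρ s 2 5))
      (S := {c | σ (c * (2 * ρ g 1 2 * e)) = c * (2 * ρ g 1 2 * e)} ×ˢ Set.univ) (Set.toFinite _) (fun s a => ⟨by
        have := (kb _ (h.n3 a g) (h.c23 _ _) (c4 s a) g).2.2.2
        rw [c5 s a, c3 s a, c1 s a] at this
        show σ _ = _
        exact rn this (by ring), trivial⟩) fun s k a b e => by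
        obtain ⟨e, e'⟩ := Prod.mk.inj e
        have c := h.mem3.1 (mul_mem (h.mem3.2 a) (inv_mem (h.mem3.2 b)))
        have y := P.tr _ ⟨h.n3 c g, h.c23 _ _, c4 _ c, by rw [c5 _ c, h.d24, h.d23, t]; linear_combination e⟩
        have y3 := y.h13
        have y4 := y.h14
        rw [c3 _ c, h.d23, neg_eq_zero] at y3
        rw [c1 _ c, h.d24, t, neg_eq_zero] at y4
        exact ⟨sub_eq_zero.1 ((mul_eq_zero.1 y3).resolve_left n12),
          by linear_combination (mul_eq_zero.1 y4).resolve_left n12, e'⟩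
    rw [Set.ncard_prod, h.cF] at i2
    have := ix.trans (i2.trans (Nat.mul_le_mul (Nat.mul_le_mul_right _ (h.ln
      (mul_ne_zero (mul_ne_zero e2 n12) P.e0))) (j3' h fun k _ => t k)))
    rw [← pow_succ', ← pow_add] at this
    exact absurd (h.no this) (by norm_num)
  push Not at t
  obtain ⟨r, n34⟩ := t
  have b13 : ∀ b, K3 ρ b → ρ b 2 3 = 0 → ρ b 2 4 = 0 → ρ b 1 3 = 0 := fun b a b3 b4 =>
    (mul_eq_zero.1 (kb b a b3 b4 r).1).resolve_right n34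
  have k12 : ∀ k, K4 ρ k → ρ k 1 2 = 0 := fun k d =>
    (mul_eq_zero.1 (h.re0 (a := ρ k 1 2 * e) fun μ => by
      obtain ⟨b, c, b3, b4, b5⟩ := allc h ix (-μ)
      have := (kb b c b3 b4 k).2.2.2
      rw [b13 b c b3 b4, d.h45, b5] at this
      exact rc this (by ring))).resolve_right P.e0
  have s13 : ∀ s, K3 ρ s → ρ s 2 3 = 0 → ρ s 1 3 = 0 := fun s a s3 =>
    (mul_eq_zero.1 (h.re0 (a := ρ s 1 3 * e) fun x => by
      obtain ⟨k, -, -, -, k3, k4⟩ := h.tr 0 0 0 x 0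
      have c4 : ρ ⁅s, k⁆ 2 4 = 0 := by rw [h.c24, s3, a.h34]; ring
      have c : K2 ρ ⁅s, k⁆ := ⟨h.n3 a k, h.c23 _ _, c4, by rw [h.c25, c4, s3, k4, a.h35, a.h45]; ring⟩
      have := P.re _ c
      rw [h.c15, (P.tr _ c).h13, (P.tr _ c).h14, s12 s a, k12 k ⟨k4⟩, k3, k4, a.h35, a.h45] at this
      exact rc this (by ring))).resolve_right P.e0
  have s23 : ∀ s, K3 ρ s → ρ s 2 3 = 0 := fun s a => by
    have := s13 _ (h.n3 a g) (h.c23 _ _)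
    rw [h.c13, s12 s a] at this
    simpa [n12] using this
  obtain ⟨b, a, b3, b4, b14⟩ : ∃ b, K3 ρ b ∧ ρ b 2 3 = 0 ∧ ρ b 2 4 = 0 ∧ ρ b 1 4 ≠ 0 := by
    by_contra! m
    refine mul_ne_zero n12 P.e0 (h.re0 fun μ => ?_)
    obtain ⟨b, c, b3, b4, b5⟩ := allc h ix (-μ)
    have := (kb b c b3 b4 g).2.2.2
    rw [b13 b c b3 b4, m b c b3 b4, b5] at this
    exact rc this (by ring)
  have b02 : ρ b 0 2 = 0 := by simpa [b13 b a b3 b4, n23] using (kb b a b3 b4 g23).2.1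
  have kt : ∀ k, ρ b 0 3 * ρ k 3 4 = ρ k 0 1 * ρ b 1 4 := fun k => by simpa [b02] using (kb b a b3 b4 k).2.2.1
  have b03 : ρ b 0 3 ≠ 0 := fun y => by simpa [y, hg0, P.e0, b14] using kt g0
  obtain ⟨ε, hε⟩ := P.pv
  have i3 := h.i3 (fun k => (ρ k 3 4, ρ k 3 5)) (S := {x | ∃ n : ℕ, x = n * (ε * ρ b 1 4 / ρ b 0 3)} ×ˢ Set.univ)
    (Set.toFinite _) (fun k _ => ⟨by
      obtain ⟨n, hn⟩ := hε k
      refine ⟨n, ?_⟩
      have := kt k
      rw [hn] at this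
      field_simp
      linear_combination this, trivial⟩) fun _ _ _ _ e => Prod.mk.inj e
  have g45 : ρ g 4 5 ≠ 0 := fun y => n12 (k12 g ⟨y⟩)
  have i2 := h.i2 (fun s => (ρ s 2 4, ρ s 2 5))
    (S := {c | σ (c * (2 * ρ g 1 2 * ρ g 4 5 * e)) = c * (2 * ρ g 1 2 * ρ g 4 5 * e)} ×ˢ Set.univ) (Set.toFinite _)
    (fun s a => ⟨by
      have c4 : ρ ⁅s, g⁆ 2 4 = 0 := by rw [h.c24, s23 s a, a.h34]; ring
      have c3 := b13 _ (h.n3 a g) (h.c23 _ _) c4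
      have := (kb _ (h.n3 a g) (h.c23 _ _) c4 g).2.2.2
      rw [h.c25, c4, h.c14, c3, s12 s a, s13 s a (s23 s a), s23 s a, a.h34, a.h35, a.h45] at this
      show σ _ = _
      exact rn this (by ring), trivial⟩) fun s k a b e =>
      ⟨by rw [s23 s a, s23 k b], (Prod.mk.inj e).1, (Prod.mk.inj e).2⟩
  rw [Set.ncard_prod, h.cF] at i2 i3
  have := ix.trans (i2.trans (Nat.mul_le_mul (Nat.mul_le_mul_right _ (h.ln
    (mul_ne_zero (mul_ne_zero (mul_ne_zero e2 n12) g45) P.e0))) (i3.trans (Nat.mul_le_mul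
      (Nat.mul_le_mul_right _ (FD.pv _)) h.i4))))
  have q0 : 0 < q ^ 7 := pow_pos (by linarith [h.q2]) 7
  nlinarith [h.lt P.pp]

theorem p3a (h : Md σ q ρ) : P3A q ρ := fun pp t1 fx1 fx pv => by
  obtain ⟨e, P, ix⟩ := pa0 h pp t1 fx1 fx pv
  by_cases z : ∀ g, ρ g 2 3 = 0
  · exact paA h P ix z
  · exact paB h P ix (not_forall.1 z)

end H19.PG
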