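/-
S5806, characteristic two: chunk DA.
-/
import Cfsg.Agent.H10.SP.A

set_option autoImplicit false
set_option linter.unusedVariables false
set_option linter.unusedSectionVars false
set_option linter.unusedSimpArgs false

namespace H19.S6
open Matrix Cfsg Cfsg.Geo H27.Asch Module Submodule H11.SP H6.SP H10.SP
open scoped commutatorElement MatrixGroups

universe u
variable {k : Type u} [Field k] [CharP k 2] {G : Type*} [Group G] {P : Subgroup (G6 k)} {π : P →* G}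
  {u w u' w' p x y z s t v : V6 k} {c l α α' β : k} {K : Subfield k} {g : G6 k}

theorem N_ad (u w a b : V6 k) : fm (N u w *ᵥ a) b = fm a (N u w *ᵥ b) := by
  simp only [N_mv, fm_add_l, fm_add_r, fm_smul_l, fm_smul_r, fm_sy u b, fm_sy w b]; ring

/-- three orthogonal hyperbolic pairs -/
theorem six (h1 : fm p z ≠ 0) (h2 : fm x y ≠ 0) (h3 : fm s t ≠ 0) (o : ∀ a ∈ [p, z], ∀ b ∈ [x, y, s, t], fm a b = 0)
    (o' : ∀ a ∈ [x, y], ∀ b ∈ [s, t], fm a b = 0) (h : ∀ a ∈ [p, z, x, y, s, t], fm a v = 0) : v = 0 := by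
  simp only [List.forall_mem_cons, List.not_mem_nil, false_imp_iff, implies_true, and_true] at o o' h
  have li : LinearIndependent k ![p, z, x, y, s, t] := Fintype.linearIndependent_iff.2 fun g e i => by
    have e1 := congrArg (fm p) e
    have e2 := congrArg (fm z) e
    have e3 := congrArg (fm x) e
    have e4 := congrArg (fm y) e
    have e5 := congrArg (fm s) e
    have e6 := congrArg (fm t) e
    simp [Fin.sum_univ_succ, o, o', h1, h2, h3, fm_sy z p, fm_sy y x, fm_sy t s, fm_sy x p, fm_sy x z, fm_sy y p, fm_sy y z,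
      fm_sy s p, fm_sy s z, fm_sy t p, fm_sy t z, fm_sy s x, fm_sy s y, fm_sy t x, fm_sy t y] at e1 e2 e3 e4 e5 e6
    fin_cases i <;> assumption
  refine fm_nd' fun a => (mem_perp (S := Set.range ![p, z, x, y, s, t])).2 (by simp [h]) a ?_
  rw [li.span_eq_top_of_card_eq_finrank' (by simp)]; trivial

/-- elements of the unipotent radical of the stabilizer of `p` -/
def Q1 (P : Subgroup (G6 k)) (p w : V6 k) (α : k) : Prop := ∃ g ∈ P, g.val = 1 + N p w + α • E p p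

theorem q_mv (p w v : V6 k) (α : k) : (1 + N p w + α • E p p) *ᵥ v = v + (fm v w • p + fm v p • w) + (α * fm v p) • p := by
  rw [add_mulVec, r_mv, smul_mulVec, E_mv, smul_smul]
theorem Q1.of (h : A2 P p w) : Q1 P p w 0 := let ⟨g, m, e⟩ := h.2.2; ⟨g, m, by simpa using e⟩
theorem Q1.mul (h : Q1 P p w α) (h' : Q1 P p w' α') (a : fm p w = 0) (a' : fm p w' = 0) :
    Q1 P p (w + w') (α + α' + fm w w') :=
  let ⟨g, m, e⟩ := h; let ⟨g', m', e'⟩ := h'
  ⟨g * g', mul_mem m m', mext fun v => by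
    simp only [mul_mv, e, e', q_mv, fm_add_l, fm_add_r, fm_smul_l, fm_self, a, fm_sy w' p, a', fm_sy w' w]; module⟩
theorem Q1.cj (hP : P ≤ S6 k) (h : Q1 P p w α) (hg : g ∈ P) (e : g.val *ᵥ p = l • p) : Q1 P p (l • g.val *ᵥ w) (l ^ 2 * α) :=
  let ⟨a, m, f⟩ := h
  ⟨_, mul_mem (mul_mem hg m) (inv_mem hg), by
    rw [Units.val_mul, Units.val_mul, f, mul_add, mul_add, add_mul, add_mul, N_cj (hP hg), mul_smul_comm, smul_mul_assoc,
      E_cj (hP hg), mul_one, Units.mul_inv, e, N_smul_l, N_smul_r]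
    exact congrArg _ (mext fun v => by simp only [smul_mulVec, E_mv, fm_smul_r]; module)⟩
theorem Q1.congr (h : Q1 P p w α) (e : N p w = N p w') (e' : α = α') : Q1 P p w' α' := by rwa [Q1, ← e, ← e']
theorem Q1.cm (hP : P ≤ S6 k) (h : A2 P p y) (hg : g ∈ P) (e : g.val *ᵥ p = l • p) :
    Q1 P p (l • g.val *ᵥ y + y) (l * fm (g.val *ᵥ y) y) := by
  have := ((Q1.of h).cj hP hg e).mul (.of h) (by rw [fm_smul_r, ← fm_smul_l, ← e, fm_iso (hP hg), h.1]) h.1
  simpa using this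

/-- the torus of an opposite pair -/
theorem tor' [Finite k] (ek : EK P K) (h : A2 P p x) (h' : A2 P u w) (n : pr p x u w ≠ 0) (hl : l ∈ K) (l0 : l ≠ 0) :
    ∃ g ∈ P, g.val *ᵥ p = l • p ∧ g.val *ᵥ x = l • x ∧ ∀ v, ∃ a b c : V6 k, a = (pr p x u w)⁻¹ • N u w *ᵥ (N p x *ᵥ v) ∧
      b ∈ span k {p, x} ∧ v = a + b + c ∧ fm c p = 0 ∧ fm c x = 0 ∧ fm c a = 0 ∧ g.val *ᵥ v = l⁻¹ • a + l • b + c := by
  obtain ⟨g, hg, s, -, e, e1, e2, e3, e4, e5⟩ := tor h h' n (((ek p x h _).1 (pow_mem hl 2)).resolve_left (pow_ne_zero 2 l0))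
  obtain rfl : s = l := by grind
  refine ⟨g, hg, e1, e2, fun v => ?_⟩
  obtain ⟨c, e⟩ : ∃ c, v = (pr p x u w)⁻¹ • N u w *ᵥ (N p x *ᵥ v) + (pr p x u w)⁻¹ • N p x *ᵥ (N u w *ᵥ v) + c :=
    ⟨_, (add_sub_cancel _ _).symm⟩
  have q (a) : fm c a = fm v a + (pr p x u w)⁻¹ * fm v (N p x *ᵥ (N u w *ᵥ a)) + (pr p x u w)⁻¹ * fm v (N u w *ᵥ (N p x *ᵥ a)) := by
    have := congrArg (fm · a) e
    simp only [fm_add_l, fm_smul_l, N_ad] at this
    grind
  have q1 := q p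
  have q2 := q x
  have q3 := q u
  have q4 := q w
  simp only [NN_u, NN_w, N_l h.1, N_r h.1, N_l h'.1, N_r h'.1, mulVec_zero, fm_zero_r, fm_smul_r, pr_symm u w,
    inv_mul_cancel_left₀ n, mul_zero, add_zero, aa] at q1 q2 q3 q4
  refine ⟨_, _, c, rfl, smul_mem _ _ (N_mv p x _ ▸ mem_span_pair.2 ⟨_, _, rfl⟩), e, q1, q2, by simp [N_mv u w, q3, q4], ?_⟩
  conv_lhs => rw [e]
  simp only [mulVec_add, mulVec_smul, e5 c q1 q2 q3 q4, N_mv u w (N p x *ᵥ v), N_mv p x (N u w *ᵥ v), e1, e2, e3, e4]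
  module

/-- the normalized configuration -/
structure Cf (P : Subgroup (G6 k)) (p x y z : V6 k) : Prop where
  d : A2 P p x
  a : A2 P p y
  b : A2 P x z
  xy : fm x y = 1
  pz : fm p z = 1
  yz : fm y z = 0

theorem Cf.symm (h : Cf P p x y z) : Cf P x p z y := ⟨h.d.symm, h.b, h.a, h.pz, h.xy, by rw [fm_sy, h.yz]⟩

/-- the unnormalized configuration -/
theorem ex_cf0 [Finite k] (tp : Tp P) (h : A2 P u w) : ∃ p x y z, N u w = N p x ∧ A2 P p x ∧ A2 P p y ∧ A2 P x z ∧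
    fm x y = 1 ∧ fm p z ≠ 0 ∧ fm y z = 0 := by
  obtain ⟨α, y, a, m⟩ := tp u w h
  obtain ⟨β, z, b, m'⟩ := tp _ _ (h.shift α).symm
  have e : N u w = N (w + α • u) (u + β • (w + α • u)) := by rw [N_shift, N_comm (w + _), N_shift]
  have d := (h.shift α).symm.shift β
  have m2 : fm (u + β • (w + α • u)) y ≠ 0 := by rwa [fm_add_l, fm_smul_l, a.1, mul_zero, add_zero]
  generalize w + α • u = p at *
  generalize u + β • p = x at *
  obtain ⟨r, hr⟩ := FiniteField.isSquare_of_char_two (ringChar.eq k 2) (fm x y)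
  have r0 : r ≠ 0 := by grind
  have b' := (b.shift (fm y z / fm x y)).scale (inv_ne_zero r0)
  refine ⟨r • p, r⁻¹ • x, r⁻¹ • y, _, by rw [e, N_smul_l, N_smul_r, smul_smul, mul_inv_cancel₀ r0, one_smul], d.scale r0, a.scale r0,
    b', ?_, ?_, ?_⟩ <;> simp [d.1, fm_sy y x, r0, m'] <;> grind

theorem ex_cf [Finite k] (tp : Tp P) (h : A2 P u w) (ek : EK P K) (pk : PK P K) : ∃ p x y z, Cf P p x y z := by
  obtain ⟨p, x, y, z, -, d, a, b, e, m, e'⟩ := ex_cf0 tp h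
  have := pk _ _ _ _ a b
  rw [pr, d.1, zero_mul, zero_add, fm_sy y, e, mul_one] at this
  exact ⟨p, x, y, _, d, a, ((ek _ _ b _).1 (inv_mem this)).resolve_left (inv_ne_zero m), e, by simp [m], by simp [e']⟩

/-- the image in `p ⊗ Π` -/
def Th (P : Subgroup (G6 k)) (p x w : V6 k) (α : k) : Prop := fm p w = 0 ∧ fm x w = 0 ∧ ∃ β : k, Q1 P p (w + β • x) α

theorem Th.mk' (h : Q1 P p (w + v) α) (m : v ∈ span k {p, x}) (a : fm p w = 0) (b : fm x w = 0) : Th P p x w α := by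
  obtain ⟨c, β, rfl⟩ := mem_span_pair.1 m
  exact ⟨a, b, β, h.congr (by rw [← N_shift p (w + β • x) c]; congr 1; abel) rfl⟩
theorem Th.shift (d : A2 P p x) (h : Th P p x w α) (m : v ∈ span k {p, x}) : Th P p x (w + v) α := by
  obtain ⟨a, b, β, h⟩ := h
  refine .mk' (v := v + β • x) (by rwa [add_assoc, ← add_assoc v, vv (k := k), zero_add])
    (add_mem m (smul_mem _ _ (subset_span (by simp)))) ?_ ?_ <;> obtain ⟨c, β, rfl⟩ := mem_span_pair.1 m <;>
    simp [a, b, d.1, fm_sy x p]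
theorem Th.add (d : A2 P p x) : Th P p x w α → Th P p x w' α' → Th P p x (w + w') (α + α' + fm w w')
  | ⟨a, b, β, h⟩, ⟨a', b', β', h'⟩ => ⟨by simp [a, a'], by simp [b, b'], β + β',
    (h.mul h' (by simp [a, d.1]) (by simp [a', d.1])).congr (by congr 1; module) (by simp [b', fm_sy w x, b])⟩

variable [Finite k] (hP : P ≤ S6 k) (kt : Kt P) (ek : EK P K) (cf : Cf P p x y z)
include hP kt ek

theorem Th.smul (d : A2 P p x) (h : Th P p x w α) (hl : l ∈ K) : Th P p x (l • w) (l ^ 2 * α) := by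
  obtain ⟨a, b, β, h⟩ := h
  by_cases l0 : l = 0
  · exact ⟨by simp [a], by simp [b], 0, 1, one_mem _, by simp [l0, N_zero_r]⟩
  obtain ⟨u, u', e, n⟩ := kt.opp p x d
  obtain ⟨g, hg, e1, e2, e3⟩ := tor' ek d e n hl l0
  obtain ⟨_, v, c, rfl, m, e4, -, -, -, e5⟩ := e3 w
  simp only [N_mv p x, fm_sy w, a, b, zero_smul, add_zero, mulVec_zero, smul_zero, zero_add] at e4 e5
  refine .mk' (v := (l + l ^ 2) • v + (l ^ 2 * β) • x) ((h.cj hP hg e1).congr (congrArg _ ?_) rfl)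
    (add_mem (smul_mem _ _ m) (smul_mem _ _ (subset_span (by simp)))) (by simp [a]) (by simp [b])
  rw [mulVec_add, mulVec_smul, e5, e2, e4]
  linear_combination (norm := module) -vv (k := k) (l • v)

include cf
omit kt ek in
theorem Th.tr' (h : Q1 P p (w + β • x) α) (a : fm p w = 0) (b : fm x w = 0) (hb : A2 P x (c • z)) :
    Q1 P x (c • w + (c * (fm z w + α)) • p) (c ^ 2 * α) := by
  obtain ⟨g, hg, e⟩ := h
  have := Q1.cm hP hb hg (l := 1) (by simp [e, q_mv, b, fm_sy x p, cf.d.1])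
  refine this.congr ?_ ?_
  · rw [← N_shift x (c • w + _) (c * β)]; congr 1
    simp only [e, q_mv, fm_add_r, fm_smul_l, fm_smul_r, fm_sy z p, fm_sy z x, cf.pz, cf.b.1]
    linear_combination (norm := module) vv (k := k) (c • z)
  · simp [e, q_mv, fm_sy z p, fm_sy z x, cf.pz, cf.b.1, fm_sy w z]; grind

omit kt ek in
theorem Th.tr : Th P p x w α → Th P x p w α
  | ⟨a, b, β, h⟩ => ⟨b, a, _, by simpa using Th.tr' hP cf h a b (c := 1) (by simpa using cf.b)⟩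

theorem Th.rad (nt : NoTv P) (bg : Big K) : Th P p x 0 α → α = 0
  | ⟨a, b, β, h⟩ => by
    obtain ⟨l, hl, l0, l1⟩ := bg
    obtain ⟨u, u', e, n⟩ := kt.opp p x cf.d
    obtain ⟨g, hg, e1, e2, -⟩ := tor' ek cf.d e n hl l0
    have h1 := (Th.tr' hP cf h a b (c := 1) (by simpa using cf.b)).cj hP hg e2
    have h2 := Th.tr' hP cf h a b (((ek _ _ cf.b _).1 (pow_mem hl 2)).resolve_left (pow_ne_zero 2 l0))
    simp only [smul_zero, zero_add, fm_zero_r, mulVec_smul, e1, smul_smul] at h1 h2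
    obtain ⟨g, hg, e⟩ := (h1.mul h2 (by simp [fm_sy x p, cf.d.1]) (by simp [fm_sy x p, cf.d.1])).congr (w' := 0)
      (congrArg _ (by match_scalars; grind)) rfl
    have := nt.eq cf.b.ne_l hg (by rwa [N_zero_r, add_zero] at e)
    simp only [fm_smul_l, fm_smul_r, fm_self] at this
    grind

omit kt in
theorem Th.mem (h : Th P p x w α) (h' : Th P p x w' α') : fm w w' ∈ K := by
  obtain ⟨b', a', β', h'⟩ := h'.tr hP cf
  obtain ⟨a, b, β, g, hg, e⟩ := h
  have q := (h'.cj hP hg (l := 1) (by simp [e, q_mv, b, fm_sy x p, cf.d.1])).mul h'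
    (by simp [e, q_mv, fm_sy x p, cf.d.1, b, b']) (by simp [fm_sy x p, cf.d.1, b'])
  obtain ⟨g, hg, e⟩ := q.congr (w' := fm w w' • p) (α' := 0) (congrArg _ (by
    simp only [e, q_mv, fm_add_l, fm_add_r, fm_smul_l, fm_smul_r, fm_sy w' p, fm_sy w' x, fm_sy w' w, a, a', b', cf.d.1, fm_self]
    linear_combination (norm := module) vv (k := k) (w' + β' • p))) (by
    simp [e, q_mv, fm_sy w' p, fm_sy w' x, fm_sy w' w, a, a', b', cf.d.1, aa])
  refine (ek _ _ cf.d.symm _).2 (or_iff_not_imp_left.2 fun n => ⟨by simp [fm_sy x p, cf.d.1], ?_, g, hg, by simpa using e⟩)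
  rw [N_smul_r]; exact smul_ne_zero n cf.d.symm.2.1

theorem opp_th (bg : Big K) (e : A2 P u w) (n : pr p x u w ≠ 0) : ∃ b c, b ∈ span k {p, x} ∧
    (pr p x u w)⁻¹ • N u w *ᵥ p = y + b + c ∧ Th P p x c (fm y b + fm y c) := by
  obtain ⟨l, hl, l0, l1⟩ := bg
  obtain ⟨g, hg, e1, e2, e3⟩ := tor' ek cf.d e n hl l0
  obtain ⟨a, b, c, ea, m, e4, c1, c2, c3, e5⟩ := e3 y
  simp only [N_mv p x, fm_sy y, cf.xy, cf.a.1, zero_smul, add_zero, one_smul] at ea
  have l2 : 1 + l ≠ 0 := by grind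
  have cb : fm c b = 0 := by obtain ⟨_, _, rfl⟩ := mem_span_pair.1 m; simp [c1, c2]
  refine ⟨b, c, m, by rw [← ea, e4]; linear_combination (norm := module) -vv (k := k) (b + c), ?_⟩
  have := (Th.mk' (w := (1 + l) • c) (v := (1 + l ^ 2) • b) ((Q1.cm hP cf.a hg e1).congr (congrArg _ (by
    rw [e5, e4, smul_add, smul_add, smul_inv_smul₀ l0]; linear_combination (norm := module) vv (k := k) a)) rfl)
    (smul_mem _ _ m) (by simp [fm_sy p c, c1]) (by simp [fm_sy x c, c2])).smul hP kt ek cf.d (inv_mem (add_mem (one_mem K) hl))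
  rw [inv_smul_smul₀ l2] at this
  convert this using 1
  rw [e5, e4]
  simp [cb, c3, fm_sy a c, fm_sy b c, fm_sy b a]; grind

omit hP kt ek cf in
theorem exp_u (p x u w : V6 k) : pr p x u w • u = fm u x • N u w *ᵥ p + fm u p • N u w *ᵥ x := by
  rw [pr_symm, ← NN_u, N_mv p x, mulVec_add, mulVec_smul, mulVec_smul]

omit hP ek cf in
theorem fix_d (t3 : ¬ T3 P) (d : A2 P p x) (e : A2 P u w) (z : pr p x u w = 0) (eg : g.val = 1 + N u w) :
    N (g.val *ᵥ p) (g.val *ᵥ x) = N p x := by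
  obtain ⟨a, b, a', b', e1, e2, f1, f2, rfl | t⟩ := kt.ty _ _ _ _ d.1 e.1 d.2.1 e.2.1 z
  · rw [N_act (r_S6 e.1 eg) e1, e1, eg, e2, r_mv, r_mv]; simp [f2, fm_sy b a', f1, N_shift]
  · exact (t3 ⟨_, _, _, _, d.congr e1 f1, e.congr e2 f2, t⟩).elim

omit hP ek cf in
/-- the planes opposite to `d` span -/
theorem opp_top (hq : Rq P π) (t3 : ¬ T3 P) (d : A2 P p x) : span k {u | ∃ w, A2 P u w ∧ pr p x u w ≠ 0} = ⊤ := by
  refine (irr_gen hq (kt.gen ⟨_, _, d⟩) _ ?_).resolve_left fun e => ?_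
  · rintro g ⟨u, w, e, eg⟩ v hv
    by_cases z : pr p x u w = 0
    · obtain ⟨g', hg, eg'⟩ := e.2.2
      obtain rfl : g' = g := Units.ext (eg'.trans eg.symm)
      refine (span_le (p := Submodule.comap (Matrix.toLin' g'.val) (span k _))).2 ?_ hv
      rintro a ⟨b, h, n⟩
      exact subset_span ⟨_, h.cj hq.sp hg, by rwa [toLin'_apply, ← pr_congr (fix_d kt t3 d e z eg) rfl, pr_cj (hq.sp hg)]⟩
    · rw [eg, r_mv]
      exact add_mem hv (add_mem (smul_mem _ _ (subset_span ⟨w, e, z⟩))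
        (smul_mem _ _ (subset_span ⟨u, e.symm, by rwa [pr_congr rfl (N_comm w u)]⟩)))
  · obtain ⟨u, w, h, n⟩ := kt.opp p x d
    exact h.ne_l ((Submodule.eq_bot_iff _).1 e u (subset_span ⟨w, h, n⟩))

omit hP ek cf in
theorem fixq (hq : Rq P π) (t3 : ¬ T3 P) (d : A2 P p x) (Q : V6 k → k) (q1 : ∀ c v, Q (c • v) = c ^ 2 * Q v)
    (q2 : ∀ u v, Q (u + v) = Q u + Q v + fm u v) (h : ∀ u w, A2 P u w → pr p x u w ≠ 0 → Q u = 0) : FixQ P := by
  let S : Subgroup (G6 k) := ⟨⟨⟨{g | ∀ v, Q (g.val *ᵥ v) = Q v}, fun a b v => by rw [mul_mv, a, b]⟩, fun v => by simp⟩,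
    fun {g} a v => by rw [← a, mv_inv]⟩
  refine ⟨Q, q1, q2, fun g hg => (Subgroup.closure_le S).2 ?_ (kt.gen ⟨_, _, d⟩ hg)⟩
  rintro g ⟨u, w, e, eg⟩ v
  by_cases z : pr p x u w = 0
  · obtain ⟨g', hg, eg'⟩ := e.2.2
    obtain rfl : g' = g := Units.ext (eg'.trans eg.symm)
    refine span_induction (p := fun v _ => Q (g'.val *ᵥ v) = Q v) ?_ (by simp)
      (fun a b _ _ ha hb => by rw [mulVec_add, q2, q2, ha, hb, fm_iso (hq.sp hg)])
      (fun c a _ ha => by rw [mulVec_smul, q1, q1, ha]) ((opp_top kt hq t3 d).ge (mem_top (x := v)))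
    rintro a ⟨b, h', n⟩
    rw [h _ _ h' n, h _ _ (h'.cj hq.sp hg) (by rwa [← pr_congr (fix_d kt t3 d e z eg) rfl, pr_cj (hq.sp hg)])]
  · rw [eg, r_mv, q2, q2, q1, q1, h _ _ e z, h _ _ e.symm (by rwa [pr_congr rfl (N_comm w u)])]
    simp [e.1]; grind

omit hP kt ek in
theorem Th.prj (h : Th P p x w α) : ∃ w', Th P p x w' α ∧ (∀ a ∈ [p, z, x, y], fm a w' = 0) ∧ w + w' ∈ span k {p, x} := by
  have m : fm z w • p + fm y w • x ∈ span k {p, x} := mem_span_pair.2 ⟨_, _, rfl⟩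
  exact ⟨_, h.shift cf.d m, by simp [h.1, h.2.1, cf.d.1, cf.a.1, cf.b.1, cf.xy, cf.pz, fm_sy x p, fm_sy z p, fm_sy z x, fm_sy y p,
    fm_sy y x, aa], by rwa [← add_assoc, vv (k := k), zero_add]⟩

omit kt ek hP in
theorem perp_l (h : ∀ a ∈ [p, z, x, y], fm a t = 0) (m : v ∈ span k {p, x}) : fm v t = 0 :=
  fm_span m (h _ (by simp)) (h _ (by simp))

theorem nondeg (hq : Rq P π) (t3 : ¬ T3 P) (bg : Big K) : ∃ s t α β, Th P p x s α ∧ Th P p x t β ∧ fm s t = 1 ∧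
    (∀ a ∈ [p, z, x, y], fm a s = 0) ∧ ∀ a ∈ [p, z, x, y], fm a t = 0 := by
  by_cases H : ∃ s t α β, Th P p x s α ∧ Th P p x t β ∧ fm s t ≠ 0
  · obtain ⟨s, t, α, β, a, b, n⟩ := H
    obtain ⟨s', a', a1, a2⟩ := a.prj cf
    obtain ⟨t', b', b1, b2⟩ := (b.smul hP kt ek cf.d (inv_mem (a.mem hP ek cf b))).prj cf
    refine ⟨_, _, _, _, a', b', ?_, a1, b1⟩
    have h1 := perp_l cf b1 a2
    have h2 := fm_span b2 a.1 a.2.1
    simp only [fm_add_l, fm_smul_l, fm_sy t s, fm_sy t' s, inv_mul_cancel₀ n] at h1 h2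
    linear_combination h1 - h2
  exfalso
  push Not at H
  obtain ⟨t, t0, t1, t2⟩ : ∃ t ≠ 0, (∀ a ∈ [p, z, x, y], fm a t = 0) ∧ ∀ w α, Th P p x w α → fm w t = 0 := by
    by_cases h : ∃ t ≠ 0, (∀ a ∈ [p, z, x, y], fm a t = 0) ∧ ∃ α, Th P p x t α
    · obtain ⟨t, t0, t1, α, h⟩ := h
      exact ⟨t, t0, t1, fun w β h' => H _ _ _ _ h' h⟩
    have r := rk_perp (span k (Set.range ![p, z, x, y]))
    have r' := finrank_range_le_card (R := k) ![p, z, x, y]
    obtain ⟨t, m, t0⟩ := (Submodule.ne_bot_iff ((fB k).orthogonal (span k (Set.range ![p, z, x, y])))).1 fun e => by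
      rw [e, finrank_bot] at r; simp only [Set.finrank, Fintype.card_fin] at r'; omega
    have t1 : ∀ a ∈ [p, z, x, y], fm a t = 0 := by simpa [and_comm, and_left_comm, and_assoc] using mem_perp.1 m
    refine ⟨t, t0, t1, fun w α h' => ?_⟩
    obtain ⟨w', a, b, c⟩ := h'.prj cf
    obtain rfl : w' = 0 := by_contra fun n => h ⟨w', n, b, α, a⟩
    exact perp_l cf t1 (add_zero w ▸ c)
  refine t0 (fm_nd' fun a => (mem_perp (S := {u | ∃ w, A2 P u w ∧ pr p x u w ≠ 0})).2 ?_ a (opp_top kt hq t3 cf.d ▸ mem_top))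
  rintro u ⟨w, e, n⟩
  have n' : pr x p u w ≠ 0 := by rwa [pr_congr (N_comm x p) rfl]
  obtain ⟨b, c, m, e1, h⟩ := opp_th hP kt ek cf bg e n
  obtain ⟨b', c', m', e2, h'⟩ := opp_th hP kt ek cf.symm bg e n'
  have k0 := congrArg (fm · t) (exp_u p x u w)
  have k1 := congrArg (fm · t) e1
  have k2 := congrArg (fm · t) e2
  simp only [fm_add_l, fm_smul_l, perp_l cf t1 m, perp_l cf t1 (Set.pair_comm x p ▸ m'), t2 _ _ h, t2 _ _ (h'.tr hP cf.symm),
    t1 y (by simp), t1 z (by simp)] at k0 k1 k2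
  grind

omit hP kt ek cf [Finite k] in
theorem da : DA.{u} := fun F _ _ _ _ _ P _ hp _ kt ⟨u, w, h⟩ tp t3 K ek pk bg => by
  have hP := hp.sp
  obtain ⟨p, x, y, z, cf⟩ := ex_cf tp h ek pk
  obtain ⟨s, t, α, β, hs, ht, st, s0, t0⟩ := nondeg hP kt ek cf hp.toRq t3 bg
  simp only [List.forall_mem_cons, List.not_mem_nil, false_imp_iff, implies_true, and_true] at s0 t0
  have o (v) := six (v := v) (ne_zero_of_eq_one cf.pz) (ne_zero_of_eq_one cf.xy) (ne_zero_of_eq_one st)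
    (by simp [s0, t0, cf.d.1, cf.a.1, fm_sy z x, cf.b.1, fm_sy z y, cf.yz]) (by simp [s0, t0])
  have ex (v : V6 F) : v = fm z v • p + fm p v • z + fm y v • x + fm x v • y + fm t v • s + fm s v • t :=
    sub_eq_zero.1 (o _ (by simp [s0, t0, st, cf.d.1, cf.a.1, cf.b.1, cf.xy, cf.pz, cf.yz, fm_sy x p, fm_sy z p, fm_sy z x,
      fm_sy y p, fm_sy y x, fm_sy z y, fm_sy t s, fm_sy s p, fm_sy s z, fm_sy s x, fm_sy s y, fm_sy t p, fm_sy t z, fm_sy t x,
      fm_sy t y]))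
  let Q (v : V6 F) := fm p v * fm z v + fm x v * fm y v + fm s v * fm t v + α * fm t v ^ 2 + β * fm s v ^ 2
  have q1 (c v) : Q (c • v) = c ^ 2 * Q v := by simp only [Q, fm_smul_r]; ring
  have q2 (u v) : Q (u + v) = Q u + Q v + fm u v := by
    have := congrArg (fm · v) (ex u)
    simp only [Q, fm_add_r, fm_add_l, fm_smul_l] at this ⊢; grind
  have ql (v) (m : v ∈ span F {p, x}) : Q v = 0 := by
    obtain ⟨_, _, rfl⟩ := mem_span_pair.1 m
    simp [Q, s0, t0, cf.d.1, fm_sy x p, fm_sy s p, fm_sy s x, fm_sy t p, fm_sy t x]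
  have qt (w γ) (h : Th P p x w γ) : Q w = γ := by
    have h1 := (h.add cf.d (hs.smul hP kt ek cf.d (ht.mem hP ek cf h))).add cf.d (ht.smul hP kt ek cf.d (hs.mem hP ek cf h))
    have h2 := h1.shift cf.d (mem_span_pair.2 ⟨fm z w, fm y w, rfl⟩)
    rw [show w + fm t w • s + fm s w • t + (fm z w • p + fm y w • x) = 0 by
      have := ex w
      rw [h.1, h.2.1] at this
      linear_combination (norm := module) vv (k := F) w - this] at h2
    have := h2.rad hP kt ek cf hp.ntv bg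
    simp only [Q, h.1, h.2.1, fm_add_l, fm_smul_l, fm_smul_r, st, fm_sy w] at this ⊢
    grind
  have qy : Q y = 0 := by simp [Q, s0, t0, cf.a.1, fm_sy s y, fm_sy t y]
  have qz : Q z = 0 := by simp [Q, s0, t0, cf.b.1, fm_sy s z, fm_sy t z]
  refine hp.nq (fixq kt hp.toRq t3 cf.d Q q1 q2 fun u w e n => ?_)
  have n' : pr x p u w ≠ 0 := by rwa [pr_congr (N_comm x p) rfl]
  obtain ⟨b, c, m, e1, h⟩ := opp_th hP kt ek cf bg e n
  obtain ⟨b', c', m', e2, h'⟩ := opp_th hP kt ek cf.symm bg e n'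
  have k0 := congrArg Q (exp_u p x u w)
  have k1 := congrArg Q e1
  have k2 := congrArg Q e2
  have k3 : fm (N u w *ᵥ p) (N u w *ᵥ x) = 0 := by rw [N_mv, N_mv, fm_pair e.1]
  simp only [q1, q2, qy, qz, ql _ m, ql _ (Set.pair_comm x p ▸ m'), qt _ _ h, qt _ _ (h'.tr hP cf.symm), fm_add_l, fm_smul_l,
    fm_smul_r, k3, fm_span m h.1 h.2.1, fm_span m' h'.1 h'.2.1] at k0 k1 k2
  grind

end H19.S6
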