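/-
S5806, characteristic two: chunk N1.
-/
import Cfsg.Agent.H19.S6a
import Cfsg.Agent.H10.SP.C

set_option autoImplicit false
set_option linter.unusedVariables false
set_option linter.unusedSectionVars false
set_option linter.unusedSimpArgs false

namespace H19.S6
open Matrix Cfsg Cfsg.Geo H27.Asch Module Submodule H11.SP H6.SP H10.SP
open scoped commutatorElement MatrixGroups

universe u
variable {k : Type u} [Field k] [CharP k 2] {G : Type*} [Group G] {P : Subgroup (G6 k)} {π : P →* G}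
  {u w u' w' p x y z s t v : V6 k} {c l α α' β : k} {K : Subfield k} {g : G6 k}

def In (P : Subgroup (G6 k)) (A : M6 k) : Prop := ∃ g ∈ P, g.val = 1 + A

theorem In.add {A B : M6 k} (e : A * B = 0) : In P A → In P B → In P (A + B)
  | ⟨a, ha, ea⟩, ⟨b, hb, eb⟩ => ⟨a * b, mul_mem ha hb, by rw [Units.val_mul, ea, eb]; noncomm_ring [e]⟩
theorem In.congr {A B : M6 k} (h : In P A) (e : A = B) : In P B := e ▸ h
theorem NN0 (o : ∀ a ∈ [u, w], ∀ b ∈ [u', w'], fm a b = 0) : N u w * N u' w' = 0 := by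
  simp only [List.forall_mem_cons, List.not_mem_nil, false_imp_iff, implies_true, and_true] at o
  exact mext fun v => by simp [← mulVec_mulVec, N_mv, fm_sy _ u, fm_sy _ w, o]

/-- a partner of `p ∧ x` conjugated by `p ∧ y` -/
theorem part (hP : P ≤ S6 k) (d : A2 P p x) (a : A2 P p y) (h : A2 P (α • p + β • x) (t + v)) (m : v ∈ span k {p, x})
    (tp : fm p t = 0) (tx : fm x t = 0) (ty : fm y t = 0) (t0 : t ∉ span k {p}) (n : β * fm x y ≠ 0) :
    A2 P p ((β * fm x y) • t) := by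
  obtain ⟨γ, δ, rfl⟩ := mem_span_pair.1 m
  obtain ⟨g, hg, e⟩ := a.2.2
  refine ⟨by simp [tp], N_ne.2 ⟨d.ne_l, fun m => t0 ((smul_mem_iff _ n).1 m)⟩, In.congr (In.add (NN0 (by
    simp [e, r_mv, d.1, a.1, tp, tx, ty, fm_sy x p, fm_sy t p, fm_sy t x, fm_sy t y])) h.2.2 (h.cj hP hg).2.2) ?_⟩
  simp only [e, r_mv, d.1, a.1, tp, tx, ty, fm_sy x p, fm_sy t p, fm_sy t x, fm_sy t y, fm_add_l, fm_smul_l, fm_self, N_add_l,
    N_add_r, N_smul_l, N_smul_r, N_self, N_comm x p]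
  match_scalars <;> grind

theorem ex_t (hP : P ≤ S6 k) (kt : Kt P) (t3 : T3 P) (d : A2 P p x) : ∃ s w s' w', s ∈ span k {p, x} ∧ s' ∈ span k {p, x} ∧
    A2 P s w ∧ A2 P s' w' ∧ fm p w = 0 ∧ fm x w = 0 ∧ fm p w' = 0 ∧ fm x w' = 0 ∧ fm w w' ≠ 0 := by
  obtain ⟨u, w, u', w', h, h', t⟩ := t3
  have c := h.t3 hP h' t
  obtain ⟨g, hg, e⟩ := kt.one _ _ _ _ c d
  obtain ⟨m1, m2⟩ := mem_of_N (c.cj hP hg).2.1 e
  obtain ⟨m3, m4⟩ := mem_of_N d.2.1 e.symm
  have i := fm_iso (hP hg)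
  rw [mulVec_smul, smul_mem_iff _ t.2.2.2.1] at m2
  exact ⟨_, _, _, _, m1, m2, h.cj hP hg, h'.cj hP hg, fm_span m3 (by rw [i, h.1]) (by simp [i, fm_sy u', t.2.2.1]),
    fm_span m4 (by rw [i, h.1]) (by simp [i, fm_sy u', t.2.2.1]), fm_span m3 (by rw [i, t.2.1]) (by simp [i, h'.1]),
    fm_span m4 (by rw [i, t.2.1]) (by simp [i, h'.1]), by rw [i]; exact t.2.2.2.1⟩

/-- the plane `Π` -/
def Pl (p x y z t : V6 k) : Prop := fm p t = 0 ∧ fm x t = 0 ∧ fm y t = 0 ∧ fm z t = 0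

theorem Pl.smul (h : Pl p x y z t) (c : k) : Pl p x y z (c • t) := by simp [Pl, h.1, h.2.1, h.2.2.1, h.2.2.2]
theorem Pl.symm (h : Pl p x y z t) : Pl x p z y t := ⟨h.2.1, h.1, h.2.2.2, h.2.2.1⟩
theorem Pl.nm (h : Pl p x y z t) (n : fm p z ≠ 0) (t0 : t ≠ 0) : t ∉ span k {p} := fun m => by
  obtain ⟨c, rfl⟩ := mem_span_singleton.1 m
  have := h.2.2.2
  rw [fm_smul_r, fm_sy, mul_eq_zero_iff_right n] at this
  exact t0 (by rw [this, zero_smul])

section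
variable (hP : P ≤ S6 k) (d : A2 P p x) (a : A2 P p y) (b : A2 P x z) (m : fm x y ≠ 0) (m' : fm p z ≠ 0) (yz : fm y z = 0)
include d a b m m'

theorem prj (h1 : fm p w = 0) (h2 : fm x w = 0) : ∃ t v, w = t + v ∧ v ∈ span k {p, x} ∧ Pl p x y z t :=
  ⟨_, _, (sub_add_cancel _ _).symm, mem_span_pair.2 ⟨fm z w / fm p z, fm y w / fm x y, rfl⟩, by
    simp [Pl, h1, h2, d.1, a.1, b.1, fm_sy x p, fm_sy y p, fm_sy y x, fm_sy z p, fm_sy z x, m, m']⟩

include hP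

theorem pt1 (h : A2 P (α • p + β • x) (t + v)) (hv : v ∈ span k {p, x}) (l : Pl p x y z t) (t0 : t ≠ 0) (n : β ≠ 0) :
    A2 P p ((β * fm x y) • t) :=
  part hP d a h hv l.1 l.2.1 l.2.2.1 (l.nm m' t0) (mul_ne_zero n m)

theorem sw1 (h : A2 P x t) (l : Pl p x y z t) : A2 P p (fm x y • t) := by
  simpa using pt1 hP d a b m m' (α := 0) (β := 1) (v := 0) (by simpa using h) (zero_mem _) l h.symm.ne_l one_ne_zero

theorem mult (h : A2 P s w) (hs : s ∈ span k {p, x}) (h1 : fm p w = 0) (h2 : fm x w = 0) (n : w ∉ span k {p, x}) :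
    ∃ t v, ∃ c : k, c ≠ 0 ∧ c • w = t + v ∧ v ∈ span k {p, x} ∧ Pl p x y z t ∧ A2 P p t := by
  obtain ⟨t, v, rfl, hv, l⟩ := prj d a b m m' h1 h2
  obtain ⟨α, β, rfl⟩ := mem_span_pair.1 hs
  have t0 : t ≠ 0 := fun e => n (by rwa [e, zero_add])
  by_cases hβ : β = 0
  · have hα : α ≠ 0 := fun e => h.ne_l (by simp [e, hβ])
    have := sw1 hP d a b m m' (pt1 hP d.symm b a m' m (add_comm (α • p) _ ▸ h) (Set.pair_comm p x ▸ hv) l.symm t0 hα) (l.smul _)
    rw [smul_smul] at this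
    exact ⟨_, _, _, by positivity, smul_add .., smul_mem _ _ hv, l.smul _, this⟩
  · exact ⟨_, _, _, by positivity, smul_add .., smul_mem _ _ hv, l.smul _, pt1 hP d a b m m' h hv l t0 hβ⟩

theorem ex_T (kt : Kt P) (t3 : T3 P) : ∃ t t', Pl p x y z t ∧ Pl p x y z t' ∧ A2 P p t ∧ A2 P p t' ∧ fm t t' ≠ 0 := by
  obtain ⟨s, w, s', w', m1, m2, h, h', h1, h2, h3, h4, n⟩ := ex_t hP kt t3 d
  obtain ⟨t, v, c, c0, e, hv, l, q⟩ := mult hP d a b m m' h m1 h1 h2 fun e => n (fm_span e h3 h4)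
  obtain ⟨t', v', c', c0', e', hv', l', q'⟩ := mult hP d a b m m' h' m2 h3 h4 fun e => n (fm_sy w w' ▸ fm_span e h1 h2)
  refine ⟨t, t', l, l', q, q', fun z => ?_⟩
  have k1 := congrArg (fm · t') e
  have k2 := congrArg (fm · w) e'
  simp only [fm_add_l, fm_smul_l, fm_span hv l'.1 l'.2.1, fm_span hv' h1 h2, fm_sy w', fm_sy t' w] at k1 k2
  grind

theorem cf_of (kt : Kt P) (t3 : T3 P) (e1 : E1 P) (xy : fm x y = 1) (yz : fm y z = 0) : Cf P p x y z := by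
  obtain ⟨t, -, l, -, q, -⟩ := ex_T hP d a b m m' kt t3
  have := sw1 hP d a b m m' (sw1 hP d.symm b a m' m q l.symm) (l.smul _)
  rw [xy, one_smul] at this
  exact ⟨d, a, b, xy, e1 _ _ _ q this, yz⟩
end

/-- the prime field -/
def K2 (k : Type u) [Field k] [CharP k 2] : Subfield k where
  carrier := {c | c = 0 ∨ c = 1}
  zero_mem' := .inl rfl
  one_mem' := .inr rfl
  add_mem' := by rintro _ _ (rfl | rfl) (rfl | rfl) <;> simp [aa]
  neg_mem' {a} h := by rwa [neg_eq_of_add_eq_zero_left (aa a)]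
  mul_mem' := by rintro _ _ (rfl | rfl) (rfl | rfl) <;> simp
  inv_mem' := by rintro _ (rfl | rfl) <;> simp

theorem k2 (e1 : E1 P) (h : A2 P u w) (h' : In P (N u (c • w))) : c ∈ K2 k := or_iff_not_imp_left.2 fun n =>
  e1 _ _ _ h ⟨by simp [h.1], by rw [N_smul_r]; exact smul_ne_zero n h.2.1, h'⟩

def TT (P : Subgroup (G6 k)) (p x y z t : V6 k) : Prop := Pl p x y z t ∧ (t = 0 ∨ A2 P p t)

section
variable (hP : P ≤ S6 k) (e1 : E1 P) (cf : Cf P p x y z)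
include hP cf

theorem TT.symm (h : TT P p x y z t) : TT P x p z y t := ⟨h.1.symm, h.2.imp_right fun q => by
  simpa [cf.pz] using sw1 hP cf.d.symm cf.b cf.a (by simp [cf.pz]) (by simp [cf.xy]) q h.1.symm⟩

omit hP cf in
theorem TT.in (h : TT P p x y z t) : In P (N p t) := h.2.elim (fun e => ⟨1, one_mem _, by simp [e, N_zero_r]⟩) (·.2.2)

include e1

theorem TT.fm (h : TT P p x y z s) (h' : TT P p x y z t) : fm s t ∈ K2 k := by
  by_cases n : H6.SP.fm s t = 0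
  · exact .inl n
  exact k2 e1 cf.d (A2.t3 hP (h.2.resolve_left (by rintro rfl; simp at n))
    ((h'.symm hP cf).2.resolve_left (by rintro rfl; simp at n)) ⟨cf.d.1, h'.1.1, by rw [fm_sy, h.1.2.1], n, cf.d.nm⟩).2.2

/-- the partners of `p ∧ x` of type one -/
theorem dec (h : A2 P s w) (hs : s ∈ span k {p, x}) (h1 : fm p w = 0) (h2 : fm x w = 0) :
    ∃ t t', ∃ c ∈ K2 k, TT P p x y z t ∧ TT P p x y z t' ∧ N s w = N p t + N x t' + c • N p x := by
  have m := ne_zero_of_eq_one cf.xy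
  have m' := ne_zero_of_eq_one cf.pz
  obtain ⟨t, v, rfl, hv, l⟩ := prj cf.d cf.a cf.b m m' h1 h2
  obtain ⟨α, β, rfl⟩ := mem_span_pair.1 hs
  have q1 : TT P p x y z (β • t) := ⟨l.smul _, or_iff_not_imp_left.2 fun n => by
    simpa [cf.xy] using pt1 hP cf.d cf.a cf.b m m' h hv l (right_ne_zero_of_smul n) (left_ne_zero_of_smul n)⟩
  have q2 : TT P p x y z (α • t) := TT.symm hP cf.symm ⟨l.symm.smul _, or_iff_not_imp_left.2 fun n => by
    simpa [cf.pz] using pt1 hP cf.d.symm cf.b cf.a m' m (add_comm (α • p) _ ▸ h) (Set.pair_comm p x ▸ hv) l.symm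
      (right_ne_zero_of_smul n) (left_ne_zero_of_smul n)⟩
  obtain ⟨γ, δ, rfl⟩ := mem_span_pair.1 hv
  have e : N (α • p + β • x) (t + (γ • p + δ • x)) = N p (α • t) + N x (β • t) + (α * δ + β * γ) • N p x := by
    rw [N_add_r, N_pair, N_add_l, N_smul_l, N_smul_l, N_smul_r, N_smul_r]
  refine ⟨_, _, _, k2 e1 cf.d (In.congr (In.add (B := N p (α • t) + N x (β • t)) ?_ h.2.2
    (In.add (NN0 ?_) q2.in (q1.symm hP cf).in)) ?_), q2, q1, e⟩
  · rw [mul_add, NN0, NN0, add_zero] <;> simp [cf.d.1, l.1, l.2.1, fm_sy x p, fm_sy t p, fm_sy t x]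
  · simp [cf.d.1, l.1, l.2.1, fm_sy t x]
  · rw [e, N_smul_r _ p x]; linear_combination (norm := module) vv (k := k) (N p (α • t) + N x (β • t))

/-- the second configuration -/
theorem two' {z' : V6 k} (cf' : Cf P p y x z') (h : TT P p y x z' t) : fm z t ∈ K2 k ∧ TT P p x y z (t + fm z t • p) := by
  obtain ⟨⟨h1, h2, h3, -⟩, h4⟩ := id h
  have q : TT P p x y z (t + fm z t • p) := ⟨by
    simp [Pl, h1, h2, h3, fm_sy x p, fm_sy y p, fm_sy z p, cf.d.1, cf.a.1, cf.pz, aa], h4.imp (fun e => by simp [e]) (·.shift _)⟩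
  refine ⟨or_iff_not_imp_left.2 fun n => ?_, q⟩
  have t0 : t ≠ 0 := by rintro rfl; simp at n
  have a := h4.resolve_left t0
  have := A2.t3 hP ((h.symm hP cf').2.resolve_left t0).symm ((q.symm hP cf).2.resolve_left (a.shift _).symm.ne_l).symm
    ⟨by simp [fm_sy t p, h1], by rw [fm_sy, h3], q.1.2.2.1, by simp [fm_sy y x, cf.xy], fun m => a.symm.nm ((smul_mem_iff _ n).1
      ((Submodule.add_mem_iff_right _ (mem_span_singleton_self t)).1 m))⟩
  exact e1 _ _ _ a.symm (this.congr (by rw [fm_sy y, cf.xy, one_smul, N_add_r, N_self, zero_add])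
    (by simp [fm_sy t p, h1]))
end

theorem expand (cf : Cf P p x y z) (l : Pl p x y z s) (l' : Pl p x y z t) (st : fm s t = 1) (v : V6 k) :
    v = fm z v • p + fm p v • z + fm y v • x + fm x v • y + fm t v • s + fm s v • t := by
  obtain ⟨s1, s2, s3, s4⟩ := l
  obtain ⟨t1, t2, t3, t4⟩ := l'
  exact sub_eq_zero.1 (six (ne_zero_of_eq_one cf.pz) (ne_zero_of_eq_one cf.xy) (ne_zero_of_eq_one st)
    (by simp [*, cf.d.1, cf.a.1, fm_sy z x, cf.b.1, fm_sy z y, cf.yz]) (by simp [*])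
    (by simp [*, cf.d.1, cf.a.1, cf.b.1, cf.xy, cf.pz, cf.yz, fm_sy x p, fm_sy z p, fm_sy z x, fm_sy y p, fm_sy y x, fm_sy z y,
      fm_sy t s, fm_sy s p, fm_sy s z, fm_sy s x, fm_sy s y, fm_sy t p, fm_sy t z, fm_sy t x, fm_sy t y]))

theorem n1 : N1.{u} := fun F _ _ _ _ _ P _ hp hF kt tp t3 e1 c => by
  have hP := hp.sp
  obtain ⟨_, _, -, -, h, -⟩ := id t3
  obtain ⟨p, x, y, z, -, d, a, b, xy, m, -⟩ := ex_cf0 tp h
  obtain ⟨α, z', b', m'⟩ := tp p y a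
  replace a := a.shift α
  replace xy : fm x (y + α • p) = 1 := by simp [xy, fm_sy x p, d.1]
  generalize y + α • p = y at *
  have cf := cf_of hP d a (b.shift (fm y z)) (by simp [xy]) (by simp [d.1, m]) kt t3 e1 xy (by simp [fm_sy y x, xy, aa])
  have cf' := cf_of hP a d (b'.shift (fm x z')) (by simp [fm_sy y x, xy]) (by simp [a.1, m']) kt t3 e1 (by rw [fm_sy, xy])
    (by simp [xy, aa])
  clear m m' b b'
  generalize z + _ = z at cf
  generalize z' + _ = z' at cf'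
  obtain ⟨s, t, l, l', q, q', st⟩ := ex_T hP d a cf.b (by simp [xy]) (by simp [cf.pz]) kt t3
  replace st := (TT.fm hP e1 cf ⟨l, .inr q⟩ ⟨l', .inr q'⟩).resolve_left st
  let R (v : V6 F) := ∀ b ∈ [p, z, x, y, s, t], fm b v ∈ K2 F
  have rr {v w} (hv : R v) (hw : R w) : fm v w ∈ K2 F := by
    simp only [R, List.forall_mem_cons, List.not_mem_nil, false_imp_iff, implies_true, and_true] at hv hw
    rw [expand cf l l' st v]
    simp only [fm_add_l, fm_smul_l]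
    obtain ⟨a1, a2, a3, a4, a5, a6⟩ := hv
    obtain ⟨b1, b2, b3, b4, b5, b6⟩ := hw
    exact add_mem (add_mem (add_mem (add_mem (add_mem (mul_mem a2 b1) (mul_mem a1 b2)) (mul_mem a4 b3)) (mul_mem a3 b4))
      (mul_mem a6 b5)) (mul_mem a5 b6)
  have rb : ∀ b ∈ [p, z, x, y, s, t], R b := by
    obtain ⟨s1, s2, s3, s4⟩ := l
    obtain ⟨t1, t2, t3, t4⟩ := l'
    simp [R, s1, s2, s3, s4, t1, t2, t3, t4, st, cf.d.1, cf.a.1, cf.b.1, cf.xy, cf.pz, cf.yz, fm_sy x p, fm_sy z p, fm_sy z x,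
      fm_sy y p, fm_sy y x, fm_sy z y, fm_sy t s, fm_sy s p, fm_sy s z, fm_sy s x, fm_sy s y, fm_sy t p, fm_sy t z, fm_sy t x,
      fm_sy t y]
  have rt {w} (h : TT P p y x z' w) : R w := by
    obtain ⟨k1, k2⟩ := two' hP e1 cf cf' h
    have k3 := TT.fm hP e1 cf ⟨l, .inr q⟩ k2
    have k4 := TT.fm hP e1 cf ⟨l', .inr q'⟩ k2
    simp only [fm_add_r, fm_smul_r, fm_sy s p, fm_sy t p, l.1, l'.1, mul_zero, add_zero] at k3 k4
    simp [R, h.1.1, h.1.2.1, h.1.2.2.1, k1, k3, k4]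
  have rn {a b v w} (ha : R a) (hb : R b) (hv : R v) (hw : R w) : fm (N a b *ᵥ v) w ∈ K2 F := by
    rw [N_mv, fm_add_l, fm_smul_l, fm_smul_l]; exact add_mem (mul_mem (rr hv hb) (rr ha hw)) (mul_mem (rr hv ha) (rr hb hw))
  let S : Subgroup (G6 F) := ⟨⟨⟨{g | g ∈ S6 F ∧ ∀ v w, R v → R w → fm (g.val *ᵥ v) w ∈ K2 F}, fun {g h} a b =>
    ⟨mul_mem a.1 b.1, fun v w hv hw => by
      rw [mul_mv]; exact a.2 _ _ (fun c hc => fm_sy c _ ▸ b.2 _ _ hv (rb c hc)) hw⟩⟩,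
    one_mem _, fun v w hv hw => by simpa using rr hv hw⟩,
    fun {g} a => ⟨inv_mem a.1, fun v w hv hw => by rw [fm_inv a.1, fm_sy]; exact a.2 _ _ hw hv⟩⟩
  have le : P ≤ S := (gen54 hp.toRq t3 a cf.b (by simp [pr, d.1, cf.pz, fm_sy y x, xy])).trans ((Subgroup.closure_le _).2 <| by
    rintro g (e | ⟨u, w, m, h1, h2, h, e⟩)
    · exact ⟨r_S6 cf.b.1 e, fun v w hv hw => by
        rw [e, add_mulVec, one_mulVec, fm_add_l]; exact add_mem (rr hv hw) (rn (rb _ (by simp)) (rb _ (by simp)) hv hw)⟩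
    obtain ⟨t1, t2, c, hc, k1, k2, e'⟩ := dec hP e1 cf' h m h1 h2
    refine ⟨r_S6 h.1 e, fun v w hv hw => ?_⟩
    simp only [e, e', add_mulVec, one_mulVec, smul_mulVec, fm_add_l, fm_smul_l]
    exact add_mem (rr hv hw) (add_mem (add_mem (rn (rb _ (by simp)) (rt k1) hv hw) (rn (rb _ (by simp)) (rt k2) hv hw))
      (mul_mem hc (rn (rb _ (by simp)) (rb _ (by simp)) hv hw))))
  have := kf hF (K2 F) one_ne_zero {v | R v} (eq_top_iff.2 fun v _ => by
    rw [expand cf l l' st v]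
    exact add_mem (add_mem (add_mem (add_mem (add_mem (smul_mem _ _ (subset_span (rb _ (by simp))))
      (smul_mem _ _ (subset_span (rb _ (by simp))))) (smul_mem _ _ (subset_span (rb _ (by simp)))))
      (smul_mem _ _ (subset_span (rb _ (by simp))))) (smul_mem _ _ (subset_span (rb _ (by simp)))))
      (smul_mem _ _ (subset_span (rb _ (by simp))))) fun g hg v hv w hw => by rw [one_mul]; exact (le hg).2 v w hv hw
  exact (this.ge (Subfield.mem_top c) :)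

end H19.S6
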